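import Mathlib
import Cfsg.Agent.Lib.helper1.SZ
import Cfsg.Agent.Lib.helper1.Wielandt
import Cfsg.Agent.Lib.lead.PNil
import Cfsg.Agent.S0043

/-! Carter subgroups of finite solvable groups: existence and conjugacy. -/

set_option autoImplicit false

namespace Cfsg.Agent.Lib.helper1

open Pointwise
open Cfsg.Agent.Lib.lead

universe u

/-- Carter subgroups: nilpotent and self-normalising. -/
def IsCar {G : Type*} [Group G] (C : Subgroup G) : Prop :=
  Group.IsNilpotent C ∧ Subgroup.normalizer (C : Set G) = C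

theorem mem_normalizer_of_forall_conj_mem {G : Type*} [Group G] [Finite G] (H : Subgroup G)
    (g : G) (h : ∀ x ∈ H, g * x * g⁻¹ ∈ H) : g ∈ Subgroup.normalizer (H : Set G) := by
  rw [mem_normalizer_iff_conj_smul]
  symm
  apply Subgroup.eq_of_le_of_card_ge
  · intro x hx
    rw [mem_conj_smul]
    have h1 : MulAut.conj g • H ≤ H := by
      intro y hy
      rw [mem_conj_smul] at hy
      have := h _ hy
      simpa [mul_assoc] using this
    have h2 : MulAut.conj g • H = H :=
      Subgroup.eq_of_le_of_card_ge h1 (by rw [card_conj_smul])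
    have h3 : g * (g⁻¹ * x * g) * g⁻¹ ∈ MulAut.conj g • H := by
      rw [mem_conj_smul]
      have : g⁻¹ * (g * (g⁻¹ * x * g) * g⁻¹) * g = g⁻¹ * x * g := by group
      rw [this]
      by_contra hcon
      have hx' : x ∈ MulAut.conj g • H := by rw [h2]; exact hx
      rw [mem_conj_smul] at hx'
      exact hcon hx'
    rw [h2] at h3
    have hx' : x ∈ MulAut.conj g • H := by rw [h2]; exact hx
    rw [mem_conj_smul] at hx'
    exact hx'
  · rw [card_conj_smul]

theorem isCar_conj {G : Type*} [Group G] [Finite G] {C : Subgroup G} (hC : IsCar C) (g : G) :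
    IsCar (MulAut.conj g • C) := by
  refine ⟨isNilpotent_of_le_conj C _ hC.1 g le_rfl, ?_⟩
  apply le_antisymm _ Subgroup.le_normalizer
  intro x hx
  rw [mem_normalizer_iff_conj_smul, ← conj_mul_smul] at hx
  rw [mem_conj_smul]
  have h1 : g⁻¹ * x * g ∈ Subgroup.normalizer (C : Set G) := by
    rw [mem_normalizer_iff_conj_smul]
    have h2 : MulAut.conj (g⁻¹ * x * g) • C = MulAut.conj g⁻¹ • MulAut.conj (x * g) • C := by
      rw [← conj_mul_smul]; congr 2; group
    rw [h2, hx, ← conj_mul_smul, inv_mul_cancel, map_one, one_smul]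
  rw [hC.2] at h1
  exact h1

theorem isCar_subgroupOf {G : Type*} [Group G] {C L : Subgroup G} (hC : IsCar C) (hCL : C ≤ L) :
    IsCar (C.subgroupOf L) := by
  constructor
  · haveI := hC.1
    exact Group.nilpotent_of_mulEquiv (Subgroup.subgroupOfEquivOfLe hCL).symm
  · apply le_antisymm _ Subgroup.le_normalizer
    intro x hx
    rw [Subgroup.mem_subgroupOf]
    have h1 : (x : G) ∈ Subgroup.normalizer (C : Set G) := by
      rw [Subgroup.mem_normalizer_iff] at hx ⊢
      intro y
      constructor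
      · intro hy
        have := (hx ⟨y, hCL hy⟩).mp (by rw [Subgroup.mem_subgroupOf]; exact hy)
        rw [Subgroup.mem_subgroupOf] at this
        simpa using this
      · intro hy
        have hyL : y ∈ L := by
          have h2 : y = (x : G)⁻¹ * ((x : G) * y * (x : G)⁻¹) * (x : G) := by group
          rw [h2]
          exact L.mul_mem (L.mul_mem (L.inv_mem x.2) (hCL hy)) x.2
        have := (hx ⟨y, hyL⟩).mpr (by rw [Subgroup.mem_subgroupOf]; simpa using hy)
        rw [Subgroup.mem_subgroupOf] at this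
        exact this
    rw [hC.2] at h1
    exact h1

theorem isCar_conj_of_le {G : Type*} [Group G] {L : Subgroup G}
    (ih : ∀ C D : Subgroup L, IsCar C → IsCar D → ∃ g : L, MulAut.conj g • C = D)
    {C D : Subgroup G} (hC : IsCar C) (hD : IsCar D) (hCL : C ≤ L) (hDL : D ≤ L) :
    ∃ g ∈ L, MulAut.conj g • C = D := by
  obtain ⟨g, hg⟩ := ih _ _ (isCar_subgroupOf hC hCL) (isCar_subgroupOf hD hDL)
  exact ⟨g, g.2, conj_of_conj_subgroupOf L C D hCL hDL g hg⟩

theorem isNilpotent_of_disjoint_quotients {C : Type*} [Group C] (A B : Subgroup C) [A.Normal]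
    [B.Normal] (hAB : A ⊓ B = ⊥) (hA : Group.IsNilpotent (C ⧸ A))
    (hB : Group.IsNilpotent (C ⧸ B)) : Group.IsNilpotent C := by
  let f : C →* (C ⧸ A) × (C ⧸ B) := (QuotientGroup.mk' A).prod (QuotientGroup.mk' B)
  have hker : f.ker = ⊥ := by
    rw [eq_bot_iff]
    intro x hx
    rw [MonoidHom.mem_ker] at hx
    have h1 : QuotientGroup.mk' A x = 1 := congrArg Prod.fst hx
    have h2 : QuotientGroup.mk' B x = 1 := congrArg Prod.snd hx
    rw [← hAB]
    exact ⟨(QuotientGroup.eq_one_iff x).mp h1, (QuotientGroup.eq_one_iff x).mp h2⟩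
  exact Subgroup.isNilpotent_of_ker_le_center f (by rw [hker]; exact bot_le)

theorem isCar_eq_top_of_nilpotent {G : Type*} [Group G] (hG : Group.IsNilpotent G)
    {C : Subgroup G} (hC : Subgroup.normalizer (C : Set G) = C) : C = ⊤ := by
  by_contra hne
  have h1 := Group.normalizerCondition_of_isNilpotent (G := G) C (lt_top_iff_ne_top.mpr hne)
  rw [hC] at h1
  exact lt_irrefl _ h1

/-- Key existence lemma: if `X` maps onto a nilpotent group with kernel a `p`-group, then `X`
has a nilpotent self-normalising subgroup supplementing the kernel. -/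
theorem exists_car_of_nilpotent_image {X Y : Type*} [Group X] [Group Y] [Finite X] [Finite Y]
    (f : X →* Y) (hf : Function.Surjective f) (hY : Group.IsNilpotent Y) (p : ℕ) [Fact p.Prime]
    (hker : IsPGroup p f.ker) :
    ∃ C : Subgroup X, IsCar C ∧ C ⊔ f.ker = ⊤ := by
  have hp : p.Prime := Fact.out
  have hnormalY : ∀ (q : ℕ) [Fact q.Prime] (S : Sylow q Y), (S : Subgroup Y).Normal :=
    ((Group.isNilpotent_of_finite_tfae (G := Y)).out 0 3).mp hY
  obtain ⟨Pbar⟩ : Nonempty (Sylow p Y) := inferInstance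
  haveI : (Pbar : Subgroup Y).Normal := hnormalY p Pbar
  set P : Subgroup X := (Pbar : Subgroup Y).comap f with hPdef
  have hPp : IsPGroup p P := Pbar.isPGroup'.comap_of_ker_isPGroup f hker
  have hPidx : P.index = (Pbar : Subgroup Y).index := Subgroup.index_comap_of_surjective _ hf
  obtain ⟨a, ha⟩ := IsPGroup.iff_card.mp hPp
  have hcop : (Nat.card P).Coprime P.index := by
    rw [ha, hPidx]
    exact Nat.Coprime.pow_left a ((Nat.Prime.coprime_iff_not_dvd hp).mpr Pbar.not_dvd_index)
  obtain ⟨Q, hQ⟩ := Subgroup.exists_right_complement'_of_coprime hcop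
  have hcardQ : P.index = Nat.card Q := hQ.symm.index_eq_card
  have hQcop : (Nat.card Q).Coprime p := by
    rw [← hcardQ, hPidx]
    exact ((Nat.Prime.coprime_iff_not_dvd hp).mpr Pbar.not_dvd_index).symm
  have hPQ : Nat.card P * Nat.card Q = Nat.card X := hQ.card_mul_card
  have hkerP : f.ker ≤ P := Subgroup.ker_le_comap f _
  have hPQdisj : P ⊓ Q = ⊥ := disjoint_iff.mp hQ.disjoint
  -- images of P and Q commute
  have hcomm : ∀ u ∈ P, ∀ q ∈ Q, f u * f q = f q * f u := by
    intro u hu q hq
    have h1 : (orderOf (f q)).Coprime p := by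
      have h2 : orderOf (f q) ∣ orderOf q := orderOf_map_dvd f q
      have h3 : orderOf q ∣ Nat.card Q := by
        have := orderOf_dvd_natCard (⟨q, hq⟩ : Q)
        rwa [Subgroup.orderOf_mk] at this
      exact Nat.Coprime.coprime_dvd_left (h2.trans h3) hQcop
    have h4 := mem_centralizer_sylow_of_normal hnormalY Pbar (f q) h1
    exact Subgroup.mem_centralizer_iff.mp h4 (f u) hu
  have hcommker : ∀ u ∈ P, ∀ q ∈ Q, u * q * u⁻¹ * q⁻¹ ∈ f.ker := by
    intro u hu q hq
    rw [MonoidHom.mem_ker]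
    simp only [map_mul, map_inv]
    rw [hcomm u hu q hq]
    group
  set C : Subgroup X := Subgroup.normalizer (Q : Set X) with hCdef
  have hQC : Q ≤ C := Subgroup.le_normalizer
  have hkQ : Disjoint Q f.ker := by
    rw [disjoint_iff, eq_bot_iff, ← hPQdisj]
    intro x hx
    exact ⟨hkerP hx.2, hx.1⟩
  -- Frattini argument
  have hF : ∀ u ∈ P, ∃ n ∈ f.ker, MulAut.conj u • Q = MulAut.conj n • Q := by
    intro u hu
    set Y' : Subgroup X := Q ⊔ f.ker with hY'def
    have hQY : Q ≤ Y' := le_sup_left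
    have hkY : f.ker ≤ Y' := le_sup_right
    have huQY : MulAut.conj u • Q ≤ Y' := by
      intro x hx
      rw [mem_conj_smul] at hx
      have h1 := hcommker u hu _ hx
      have h2 : x = (u * (u⁻¹ * x * u) * u⁻¹ * (u⁻¹ * x * u)⁻¹) * (u⁻¹ * x * u) := by group
      rw [h2]
      exact Y'.mul_mem (hkY h1) (hQY hx)
    set N' : Subgroup Y' := f.ker.subgroupOf Y' with hN'def
    haveI : N'.Normal := by rw [hN'def]; infer_instance
    have hcardY : Nat.card Y' = Nat.card f.ker * Nat.card Q :=
      card_sup_of_disjoint_normal Q f.ker hkQ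
    have hcardN' : Nat.card N' = Nat.card f.ker :=
      Nat.card_congr (Subgroup.subgroupOfEquivOfLe hkY).toEquiv
    have hidx : N'.index = Nat.card Q := by
      have h1 := N'.card_mul_index
      rw [hcardN', hcardY] at h1
      exact Nat.eq_of_mul_eq_mul_left Nat.card_pos h1
    obtain ⟨b, hb⟩ := IsPGroup.iff_card.mp hker
    have hcop' : (Nat.card N').Coprime N'.index := by
      rw [hcardN', hidx, hb]; exact Nat.Coprime.pow_left b hQcop.symm
    have hN'p : IsPGroup p N' := IsPGroup.of_card (hcardN'.trans hb)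
    have hsolv : Group.IsSolvable N' := by
      haveI := hN'p.isNilpotent
      infer_instance
    have hc1 : Nat.card (Q.subgroupOf Y') = N'.index := by
      rw [hidx]; exact Nat.card_congr (Subgroup.subgroupOfEquivOfLe hQY).toEquiv
    have hc2 : Nat.card ((MulAut.conj u • Q).subgroupOf Y') = N'.index := by
      rw [hidx, ← card_conj_smul u Q]
      exact Nat.card_congr (Subgroup.subgroupOfEquivOfLe huQY).toEquiv
    obtain ⟨y, hy⟩ := sz_conj_of_solvable_normal N' hcop' hsolv _ _ hc1 hc2
    have hy' := conj_of_conj_subgroupOf Y' Q _ hQY huQY y hy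
    have hyY : (y : X) ∈ f.ker ⊔ Q := by rw [sup_comm]; exact y.2
    obtain ⟨n, hn, q₀, hq₀, hnq⟩ := Subgroup.mem_sup_of_normal_left.mp hyY
    refine ⟨n, hn, ?_⟩
    rw [← hy', ← hnq, conj_mul_smul, Subgroup.conj_smul_eq_self_of_mem hq₀]
  have hsup : C ⊔ f.ker = ⊤ := by
    rw [eq_top_iff]
    intro x _
    obtain ⟨⟨u, q⟩, huq⟩ := hQ.2 x
    have huq' : (u : X) * (q : X) = x := huq
    obtain ⟨n, hn, hnQ⟩ := hF u u.2
    have h1 : n⁻¹ * (u : X) ∈ C := by
      rw [hCdef, mem_normalizer_iff_conj_smul, conj_mul_smul, hnQ, ← conj_mul_smul,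
        inv_mul_cancel, map_one, one_smul]
    have h2 : x = n * (n⁻¹ * (u : X) * (q : X)) := by rw [← huq']; group
    rw [h2]
    exact Subgroup.mul_mem _ (Subgroup.mem_sup_right hn)
      (Subgroup.mem_sup_left (C.mul_mem h1 (hQC q.2)))
  -- nilpotency of C
  let φ : C →* Y ⧸ (Pbar : Subgroup Y) := (QuotientGroup.mk' (Pbar : Subgroup Y)).comp (f.comp C.subtype)
  have hφker : ∀ x : C, x ∈ φ.ker ↔ (x : X) ∈ P := by
    intro x
    rw [MonoidHom.mem_ker]
    show QuotientGroup.mk' (Pbar : Subgroup Y) (f (x : X)) = 1 ↔ _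
    rw [QuotientGroup.mk'_apply, QuotientGroup.eq_one_iff, hPdef, Subgroup.mem_comap]
  set B : Subgroup C := Q.subgroupOf C with hBdef
  haveI hBn : B.Normal := by
    rw [hBdef, hCdef]; exact Subgroup.normal_in_normalizer
  have hcardB : Nat.card B = Nat.card Q := Nat.card_congr (Subgroup.subgroupOfEquivOfLe hQC).toEquiv
  have hBidx : B.index ∣ Nat.card P := by
    have h1 := B.card_mul_index
    have h2 : Nat.card C ∣ Nat.card X := Subgroup.card_subgroup_dvd_card C
    rw [← h1, hcardB, ← hPQ, mul_comm (Nat.card P)] at h2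
    exact (Nat.mul_dvd_mul_iff_left Nat.card_pos).mp h2
  obtain ⟨b, hb⟩ : ∃ b, B.index = p ^ b := by
    rw [ha] at hBidx
    obtain ⟨b, -, hb⟩ := (Nat.dvd_prime_pow hp).mp hBidx
    exact ⟨b, hb⟩
  have hcardCB : Nat.card (C ⧸ B) = p ^ b := by rw [← hb]; rfl
  have hCBp : IsPGroup p (C ⧸ B) := IsPGroup.of_card hcardCB
  have hnilC : Group.IsNilpotent C := by
    apply isNilpotent_of_disjoint_quotients φ.ker B
    · rw [eq_bot_iff]
      intro x hx
      have h1 : (x : X) ∈ P ⊓ Q := ⟨(hφker x).mp hx.1, Subgroup.mem_subgroupOf.mp hx.2⟩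
      rw [hPQdisj, Subgroup.mem_bot] at h1
      rw [Subgroup.mem_bot]
      exact Subtype.ext h1
    · haveI : Group.IsNilpotent (Y ⧸ (Pbar : Subgroup Y)) := by
        haveI := hY
        infer_instance
      exact Subgroup.isNilpotent_of_ker_le_center (QuotientGroup.kerLift φ)
        (by rw [(MonoidHom.ker_eq_bot_iff _).mpr (QuotientGroup.kerLift_injective φ)]; exact bot_le)
    · exact hCBp.isNilpotent
  -- p'-elements of C lie in Q
  have hpQ : ∀ c ∈ C, (orderOf c).Coprime p → c ∈ Q := by
    intro c hc hcop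
    have h1 : (QuotientGroup.mk' B ⟨c, hc⟩) ^ orderOf c = 1 := by
      rw [← map_pow]
      have : (⟨c, hc⟩ : C) ^ orderOf c = 1 := by
        apply Subtype.ext
        simp [pow_orderOf_eq_one]
      rw [this, map_one]
    have h2 : (QuotientGroup.mk' B ⟨c, hc⟩) ^ (p ^ b) = 1 := by
      rw [← hcardCB]; exact pow_card_eq_one'
    have h3 : orderOf (QuotientGroup.mk' B ⟨c, hc⟩) = 1 :=
      Nat.eq_one_of_dvd_coprimes (Nat.Coprime.pow_right b hcop)
        (orderOf_dvd_of_pow_eq_one h1) (orderOf_dvd_of_pow_eq_one h2)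
    have h4 := orderOf_eq_one_iff.mp h3
    rw [QuotientGroup.mk'_apply, QuotientGroup.eq_one_iff, hBdef, Subgroup.mem_subgroupOf] at h4
    exact h4
  refine ⟨C, ⟨hnilC, ?_⟩, hsup⟩
  apply le_antisymm _ Subgroup.le_normalizer
  intro g hg
  rw [hCdef]
  apply mem_normalizer_of_forall_conj_mem
  intro q hq
  apply hpQ
  · exact (Subgroup.mem_normalizer_iff.mp hg q).mp (hQC hq)
  · have h1 : orderOf (g * q * g⁻¹) = orderOf q := by
      have := orderOf_injective (MulAut.conj g).toMonoidHom (MulAut.conj g).injective q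
      simpa using this
    rw [h1]
    have h3 : orderOf q ∣ Nat.card Q := by
      have := orderOf_dvd_natCard (⟨q, hq⟩ : Q)
      rwa [Subgroup.orderOf_mk] at this
    exact Nat.Coprime.coprime_dvd_left h3 hQcop

theorem exists_min_normal (G : Type*) [Group G] [Finite G] [Nontrivial G] :
    ∃ N : Subgroup G, N.Normal ∧ N ≠ ⊥ ∧
      ∀ M : Subgroup G, M.Normal → M ≤ N → M = ⊥ ∨ M = N := by
  obtain ⟨A, -, hAmin⟩ := Finite.exists_le_minimal
    (p := fun A : Subgroup G => A.Normal ∧ A ≠ ⊥) (a := ⊤) ⟨inferInstance, top_ne_bot⟩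
  obtain ⟨⟨hAnorm, hAbot⟩, hAmin'⟩ := hAmin
  refine ⟨A, hAnorm, hAbot, fun M hM hMA => ?_⟩
  by_cases hMb : M = ⊥
  · left; exact hMb
  · right; exact le_antisymm hMA (hAmin' ⟨hM, hMb⟩ hMA)

/-- The `p`-part and `p'`-part of a nilpotent subgroup. -/
theorem nilp_decomp {G : Type*} [Group G] [Finite G] (C : Subgroup G)
    (hC : Group.IsNilpotent C) (p : ℕ) [Fact p.Prime] :
    ∃ P Q : Subgroup G, P ≤ C ∧ Q ≤ C ∧ IsPGroup p P ∧ (Nat.card Q).Coprime p ∧
      Nat.card P * Nat.card Q = Nat.card C ∧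
      (∀ t ∈ Q, ∀ s ∈ P, s * t = t * s) ∧ (∀ c ∈ C, ∃ u ∈ P, ∃ v ∈ Q, c = u * v) ∧
      (∀ c ∈ C, ∀ t ∈ Q, c * t * c⁻¹ ∈ Q) := by
  have hp : p.Prime := Fact.out
  have hnormal : ∀ (r : ℕ) [Fact r.Prime] (S : Sylow r C), (S : Subgroup C).Normal :=
    ((Group.isNilpotent_of_finite_tfae (G := C)).out 0 3).mp hC
  obtain ⟨S₀⟩ : Nonempty (Sylow p C) := inferInstance
  haveI : (S₀ : Subgroup C).Normal := hnormal p S₀
  obtain ⟨T₀, hT₀⟩ := Subgroup.exists_right_complement'_of_coprime (S₀.card_coprime_index)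
  have hTcop : (Nat.card T₀).Coprime p := by
    rw [← hT₀.symm.index_eq_card]
    exact ((Nat.Prime.coprime_iff_not_dvd hp).mpr S₀.not_dvd_index).symm
  have hcomm : ∀ t ∈ T₀.map C.subtype, ∀ s ∈ (S₀ : Subgroup C).map C.subtype, s * t = t * s := by
    intro t ht s hs
    rw [Subgroup.mem_map] at ht hs
    obtain ⟨t₀, ht₀, rfl⟩ := ht
    obtain ⟨s₀, hs₀, rfl⟩ := hs
    have hcop : (orderOf t₀).Coprime p := by
      have h1 : orderOf t₀ ∣ Nat.card T₀ := by
        have := orderOf_dvd_natCard (⟨t₀, ht₀⟩ : T₀)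
        rwa [Subgroup.orderOf_mk] at this
      exact Nat.Coprime.coprime_dvd_left h1 hTcop
    have h2 := Subgroup.mem_centralizer_iff.mp
      (mem_centralizer_sylow_of_normal hnormal S₀ t₀ hcop) s₀ hs₀
    exact congrArg Subtype.val h2
  have hdec : ∀ c ∈ C, ∃ u ∈ (S₀ : Subgroup C).map C.subtype, ∃ v ∈ T₀.map C.subtype,
      c = u * v := by
    intro c hc
    obtain ⟨⟨s, t⟩, hst⟩ := hT₀.2 ⟨c, hc⟩
    refine ⟨s, Subgroup.mem_map_of_mem _ s.2, t, Subgroup.mem_map_of_mem _ t.2, ?_⟩
    have := congrArg Subtype.val hst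
    simpa using this.symm
  refine ⟨(S₀ : Subgroup C).map C.subtype, T₀.map C.subtype, Subgroup.map_subtype_le _,
    Subgroup.map_subtype_le _, S₀.isPGroup'.map C.subtype, ?_, ?_, hcomm, hdec, ?_⟩
  · rw [Subgroup.card_map_of_injective C.subtype_injective]
    exact hTcop
  · rw [Subgroup.card_map_of_injective C.subtype_injective,
      Subgroup.card_map_of_injective C.subtype_injective]
    exact hT₀.card_mul_card
  · intro c hc t ht
    obtain ⟨u, hu, v, hv, rfl⟩ := hdec c hc
    have h1 : u * v * t * (u * v)⁻¹ = u * (v * t * v⁻¹) * u⁻¹ := by group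
    have h2 : v * t * v⁻¹ ∈ T₀.map C.subtype :=
      Subgroup.mul_mem _ (Subgroup.mul_mem _ hv ht) (Subgroup.inv_mem _ hv)
    rw [h1, hcomm _ h2 u hu]
    simpa using h2

theorem carter_aux (n : ℕ) : ∀ (G : Type u) [Group G] [Finite G] [Group.IsSolvable G],
    Nat.card G ≤ n →
    (∃ C : Subgroup G, IsCar C) ∧
    (∀ C D : Subgroup G, IsCar C → IsCar D → ∃ g : G, MulAut.conj g • C = D) := by
  induction n with
  | zero =>
    intro G _ _ _ h
    have := Nat.card_pos (α := G)
    omega
  | succ n ih =>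
    intro G _ _ _ hcard
    by_cases htriv : Subsingleton G
    · refine ⟨⟨⊤, inferInstance, ?_⟩, ?_⟩
      · exact Subsingleton.elim _ _
      · intro C D _ _
        exact ⟨1, Subsingleton.elim _ _⟩
    rw [not_subsingleton_iff_nontrivial] at htriv
    haveI := htriv
    obtain ⟨N, hNn, hNbot, hNmin⟩ := exists_min_normal G
    haveI := hNn
    obtain ⟨hNcomm, p, hp, hNexp⟩ := Cfsg.Agent.S0043.result N hNbot hNmin
    haveI : Fact p.Prime := ⟨hp⟩
    have hNp : IsPGroup p N := by
      intro x
      refine ⟨1, ?_⟩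
      apply Subtype.ext
      simpa using hNexp x x.2
    have hcardQ : Nat.card (G ⧸ N) ≤ n := by
      have h1 := N.card_mul_index
      have h2 : 1 < Nat.card N := (Subgroup.one_lt_card_iff_ne_bot _).mpr hNbot
      have h3 : N.index = Nat.card (G ⧸ N) := rfl
      have h4 : 0 < N.index := Nat.pos_of_ne_zero Subgroup.index_ne_zero_of_finite
      rw [← h3]
      nlinarith
    obtain ⟨⟨Cbar, hCbar⟩, ihQconj⟩ := ih (G ⧸ N) hcardQ
    have ihS : ∀ L : Subgroup G, L ≠ ⊤ → ∀ C D : Subgroup L, IsCar C → IsCar D →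
        ∃ g : L, MulAut.conj g • C = D := by
      intro L hL
      have hlt : Nat.card L < Nat.card G :=
        lt_of_le_of_ne (Subgroup.card_le_card_group L)
          (fun h => hL (Subgroup.eq_top_of_card_eq L h))
      exact (ih L (by omega)).2
    set π := QuotientGroup.mk' N with hπ
    have hπs : Function.Surjective π := QuotientGroup.mk'_surjective N
    constructor
    · -- existence
      set K : Subgroup G := Cbar.comap π with hKdef
      have hNK : N ≤ K := by
        intro x hx
        rw [hKdef, Subgroup.mem_comap]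
        have : π x = 1 := (QuotientGroup.eq_one_iff x).mpr hx
        rw [this]; exact Cbar.one_mem
      let f : K →* Cbar := π.subgroupComap Cbar
      have hfs : Function.Surjective f :=
        MonoidHom.subgroupComap_surjective_of_surjective π Cbar hπs
      have hfker : ∀ x : K, x ∈ f.ker ↔ (x : G) ∈ N := by
        intro x
        rw [MonoidHom.mem_ker]
        constructor
        · intro h
          have : π (x : G) = 1 := congrArg Subtype.val h
          exact (QuotientGroup.eq_one_iff _).mp this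
        · intro h
          apply Subtype.ext
          exact (QuotientGroup.eq_one_iff _).mpr h
      have hkerp : IsPGroup p f.ker := by
        intro x
        obtain ⟨k, hk⟩ := hNp ⟨((x : K) : G), (hfker x).mp x.2⟩
        refine ⟨k, ?_⟩
        apply Subtype.ext; apply Subtype.ext
        have := congrArg Subtype.val hk
        simpa using this
      obtain ⟨C₀, hC₀, hC₀sup⟩ := exists_car_of_nilpotent_image f hfs hCbar.1 p hkerp
      refine ⟨C₀.map K.subtype, ?_, ?_⟩
      · haveI := hC₀.1
        exact Group.nilpotent_of_mulEquiv (C₀.equivMapOfInjective K.subtype K.subtype_injective)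
      · apply le_antisymm _ Subgroup.le_normalizer
        intro g hg
        have hdec : ∀ k ∈ K, ∃ c ∈ C₀.map K.subtype, ∃ m ∈ N, k = c * m := by
          intro k hk
          have h1 : (⟨k, hk⟩ : K) ∈ C₀ ⊔ f.ker := by rw [hC₀sup]; trivial
          obtain ⟨c₀, hc₀, m₀, hm₀, hcm⟩ := Subgroup.mem_sup_of_normal_right.mp h1
          refine ⟨c₀, Subgroup.mem_map_of_mem _ hc₀, m₀, (hfker m₀).mp hm₀, ?_⟩
          have := congrArg Subtype.val hcm
          simpa using this.symm
        have hCK : C₀.map K.subtype ≤ K := Subgroup.map_subtype_le _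
        have hgK : g ∈ K := by
          rw [hKdef, Subgroup.mem_comap, ← hCbar.2]
          apply mem_normalizer_of_forall_conj_mem
          intro y hy
          obtain ⟨k, rfl⟩ := hπs y
          have hk : k ∈ K := hy
          obtain ⟨c, hc, m, hm, rfl⟩ := hdec k hk
          have h1 : g * c * g⁻¹ ∈ C₀.map K.subtype :=
            (Subgroup.mem_normalizer_iff.mp hg c).mp hc
          have h2 : g * m * g⁻¹ ∈ N := hNn.conj_mem m hm g
          have h3 : g * (c * m) * g⁻¹ = (g * c * g⁻¹) * (g * m * g⁻¹) := by group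
          have h4 : g * (c * m) * g⁻¹ ∈ K := by
            rw [h3]; exact K.mul_mem (hCK h1) (hNK h2)
          have h5 : π g * π (c * m) * (π g)⁻¹ = π (g * (c * m) * g⁻¹) := by
            simp only [map_mul, map_inv]
          rw [h5]; exact h4
        have h5 : (⟨g, hgK⟩ : K) ∈ Subgroup.normalizer (C₀ : Set K) := by
          apply mem_normalizer_of_forall_conj_mem
          intro c₀ hc₀
          have h1 : g * (c₀ : G) * g⁻¹ ∈ C₀.map K.subtype :=
            (Subgroup.mem_normalizer_iff.mp hg _).mp (Subgroup.mem_map_of_mem K.subtype hc₀)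
          obtain ⟨c₁, hc₁, hc₁eq⟩ := Subgroup.mem_map.mp h1
          have : (⟨g, hgK⟩ : K) * c₀ * (⟨g, hgK⟩ : K)⁻¹ = c₁ := by
            apply Subtype.ext
            simpa using hc₁eq.symm
          rw [this]; exact hc₁
        rw [hC₀.2] at h5
        exact Subgroup.mem_map.mpr ⟨⟨g, hgK⟩, h5, rfl⟩
    · -- conjugacy
      intro C₁ C₂ hC₁ hC₂
      have hmapmem : ∀ (C : Subgroup G) (g : G), g ∈ C ⊔ N → π g ∈ C.map π := by
        intro C g hg
        obtain ⟨c, hc, m, hm, rfl⟩ := Subgroup.mem_sup_of_normal_right.mp hg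
        have hm1 : π m = 1 := (QuotientGroup.eq_one_iff m).mpr hm
        have : π (c * m) = π c := by
          rw [map_mul, hm1, mul_one]
        rw [this]; exact Subgroup.mem_map_of_mem _ hc
      have hc : ∀ C : Subgroup G, IsCar C → IsCar (C.map π) := by
        intro C hC
        constructor
        · haveI := hC.1
          exact Group.nilpotent_of_surjective (π.subgroupMap C) (π.subgroupMap_surjective C)
        · apply le_antisymm _ Subgroup.le_normalizer
          intro y hy
          obtain ⟨g, rfl⟩ := hπs y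
          apply hmapmem
          by_cases hL : C ⊔ N = ⊤
          · rw [hL]; trivial
          · have hD : MulAut.conj g • C ≤ C ⊔ N := by
              intro x hx
              rw [mem_conj_smul] at hx
              have h1 : π g * π (g⁻¹ * x * g) * (π g)⁻¹ ∈ C.map π :=
                (Subgroup.mem_normalizer_iff.mp hy _).mp (Subgroup.mem_map_of_mem _ hx)
              have h2 : π g * π (g⁻¹ * x * g) * (π g)⁻¹ = π x := by
                simp only [map_mul, map_inv]; group
              rw [h2] at h1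
              obtain ⟨c, hc, hcx⟩ := Subgroup.mem_map.mp h1
              have h3 : c⁻¹ * x ∈ N := QuotientGroup.eq.mp hcx
              have h4 : x = c * (c⁻¹ * x) := by group
              rw [h4]
              exact Subgroup.mul_mem _ (Subgroup.mem_sup_left hc) (Subgroup.mem_sup_right h3)
            obtain ⟨l, hl, hlC⟩ :=
              isCar_conj_of_le (ihS _ hL) hC (isCar_conj hC g) le_sup_left hD
            have h5 : l⁻¹ * g ∈ Subgroup.normalizer (C : Set G) := by
              rw [mem_normalizer_iff_conj_smul, conj_mul_smul, ← hlC, ← conj_mul_smul,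
                inv_mul_cancel, map_one, one_smul]
            rw [hC.2] at h5
            have h6 : g = l * (l⁻¹ * g) := by group
            rw [h6]
            exact Subgroup.mul_mem _ hl (Subgroup.mem_sup_left h5)
      obtain ⟨q, hq⟩ := ihQconj _ _ (hc C₁ hC₁) (hc C₂ hC₂)
      obtain ⟨g₀, hg₀⟩ := exists_conj_sup_eq N C₁ C₂ ⟨q, hq⟩
      suffices h : ∃ h : G, MulAut.conj h • (MulAut.conj g₀ • C₁) = C₂ by
        obtain ⟨h, hh⟩ := h
        exact ⟨h * g₀, by rw [conj_mul_smul]; exact hh⟩
      have hC₁' := isCar_conj hC₁ g₀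
      generalize MulAut.conj g₀ • C₁ = C₁' at hg₀ hC₁'
      by_cases hL : C₂ ⊔ N = ⊤
      swap
      · obtain ⟨l, -, hl⟩ :=
          isCar_conj_of_le (ihS _ hL) hC₁' hC₂ (hg₀ ▸ le_sup_left) le_sup_left
        exact ⟨l, hl⟩
      have hL₁ : C₁' ⊔ N = ⊤ := hg₀.trans hL
      have hinfn : ∀ C : Subgroup G, C ⊔ N = ⊤ → (C ⊓ N).Normal := by
        intro C hCN
        constructor
        intro x hx g
        have hg : g ∈ C ⊔ N := by rw [hCN]; trivial
        obtain ⟨c, hc, m, hm, rfl⟩ := Subgroup.mem_sup_of_normal_right.mp hg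
        have h1 : m * x * m⁻¹ = x := by
          have := hNcomm.is_comm.comm ⟨m, hm⟩ ⟨x, hx.2⟩
          have h2 : m * x = x * m := congrArg Subtype.val this
          rw [h2]; group
        have h3 : c * m * x * (c * m)⁻¹ = c * (m * x * m⁻¹) * c⁻¹ := by group
        rw [h3, h1]
        exact ⟨C.mul_mem (C.mul_mem hc hx.1) (C.inv_mem hc), hNn.conj_mem x hx.2 c⟩
      have hnilcase : ∀ C : Subgroup G, IsCar C → C ⊔ N = ⊤ → C ⊓ N = N →
          Group.IsNilpotent G := by
        intro C hC hCN hCN'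
        have h1 : N ≤ C := by rw [← hCN']; exact inf_le_left
        have h2 : C = ⊤ := by rw [← hCN]; exact (sup_eq_left.mpr h1).symm
        subst h2
        haveI := hC.1
        exact Group.nilpotent_of_mulEquiv Subgroup.topEquiv
      by_cases hnil : Group.IsNilpotent G
      · refine ⟨1, ?_⟩
        rw [map_one, one_smul, isCar_eq_top_of_nilpotent hnil hC₁'.2,
          isCar_eq_top_of_nilpotent hnil hC₂.2]
      have hd₁ : C₁' ⊓ N = ⊥ := by
        haveI := hinfn C₁' hL₁
        rcases hNmin (C₁' ⊓ N) inferInstance inf_le_right with h | h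
        · exact h
        · exact absurd (hnilcase C₁' hC₁' hL₁ h) hnil
      have hd₂ : C₂ ⊓ N = ⊥ := by
        haveI := hinfn C₂ hL
        rcases hNmin (C₂ ⊓ N) inferInstance inf_le_right with h | h
        · exact h
        · exact absurd (hnilcase C₂ hC₂ hL h) hnil
      obtain ⟨P₁, Q₁, hP₁C, hQ₁C, hP₁p, hQ₁cop, hPQ₁, hcomm₁, hdec₁, hnorm₁⟩ :=
        nilp_decomp C₁' hC₁'.1 p
      obtain ⟨P₂, Q₂, hP₂C, hQ₂C, hP₂p, hQ₂cop, hPQ₂, hcomm₂, hdec₂, hnorm₂⟩ :=
        nilp_decomp C₂ hC₂.1 p
      have hcc : Nat.card C₁' = Nat.card C₂ := by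
        have e1 : Nat.card (C₁' ⊔ N : Subgroup G) = Nat.card N * Nat.card C₁' :=
          card_sup_of_disjoint_normal C₁' N (disjoint_iff.mpr hd₁)
        have e2 : Nat.card (C₂ ⊔ N : Subgroup G) = Nat.card N * Nat.card C₂ :=
          card_sup_of_disjoint_normal C₂ N (disjoint_iff.mpr hd₂)
        rw [hL₁] at e1; rw [hL] at e2
        exact Nat.eq_of_mul_eq_mul_left Nat.card_pos (e1.symm.trans e2)
      obtain ⟨a₁, ha₁⟩ := IsPGroup.iff_card.mp hP₁p
      obtain ⟨a₂, ha₂⟩ := IsPGroup.iff_card.mp hP₂p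
      have hQQ : Nat.card Q₁ = Nat.card Q₂ := by
        have h1 : p ^ a₁ * Nat.card Q₁ = p ^ a₂ * Nat.card Q₂ := by
          rw [← ha₁, ← ha₂, hPQ₁, hPQ₂, hcc]
        apply Nat.dvd_antisymm
        · exact (Nat.Coprime.pow_right a₂ hQ₁cop).dvd_of_dvd_mul_left (Dvd.intro_left _ h1)
        · exact (Nat.Coprime.pow_right a₁ hQ₂cop).dvd_of_dvd_mul_left (Dvd.intro_left _ h1.symm)
      have hPQ₂disj : P₂ ⊓ Q₂ = ⊥ := by
        have : (Nat.card P₂).Coprime (Nat.card Q₂) := by
          rw [ha₂]; exact Nat.Coprime.pow_left a₂ hQ₂cop.symm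
        exact disjoint_iff.mp (Subgroup.disjoint_of_coprime_natCard this)
      have hQ₁Y : Q₁ ≤ Q₂ ⊔ N := by
        intro q hq
        have hqtop : q ∈ C₂ ⊔ N := by rw [hL]; trivial
        obtain ⟨c, hc, m, hm, rfl⟩ := Subgroup.mem_sup_of_normal_right.mp hqtop
        obtain ⟨u, hu, v, hv, rfl⟩ := hdec₂ c hc
        have hkcop : (orderOf (u * v * m)).Coprime p := by
          have h3 : orderOf (u * v * m) ∣ Nat.card Q₁ := by
            have := orderOf_dvd_natCard (⟨_, hq⟩ : Q₁)
            rwa [Subgroup.orderOf_mk] at this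
          exact Nat.Coprime.coprime_dvd_left h3 hQ₁cop
        have hk1 : (u * v * m) ^ orderOf (u * v * m) = 1 := pow_orderOf_eq_one _
        generalize orderOf (u * v * m) = k at hkcop hk1
        have hm1 : π m = 1 := (QuotientGroup.eq_one_iff m).mpr hm
        have h1 : π ((u * v) ^ k) = 1 := by
          have h2 : π (u * v * m) = π (u * v) := by rw [map_mul, hm1, mul_one]
          rw [map_pow, ← h2, ← map_pow, hk1, map_one]
        have h2 : (u * v) ^ k ∈ C₂ ⊓ N :=
          ⟨C₂.pow_mem (C₂.mul_mem (hP₂C hu) (hQ₂C hv)) k, (QuotientGroup.eq_one_iff _).mp h1⟩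
        rw [hd₂, Subgroup.mem_bot] at h2
        have hcuv : Commute u v := hcomm₂ v hv u hu
        rw [hcuv.mul_pow] at h2
        have h4 : u ^ k ∈ P₂ ⊓ Q₂ := ⟨P₂.pow_mem hu k, by
          have : u ^ k = (v ^ k)⁻¹ := eq_inv_of_mul_eq_one_left h2
          rw [this]; exact Q₂.inv_mem (Q₂.pow_mem hv k)⟩
        rw [hPQ₂disj, Subgroup.mem_bot] at h4
        have h5 : orderOf u ∣ k := orderOf_dvd_of_pow_eq_one h4
        have h6 : orderOf u ∣ p ^ a₂ := by
          rw [← ha₂]
          have := orderOf_dvd_natCard (⟨u, hu⟩ : P₂)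
          rwa [Subgroup.orderOf_mk] at this
        have h7 : orderOf u = 1 :=
          Nat.eq_one_of_dvd_coprimes (Nat.Coprime.pow_right a₂ hkcop) h5 h6
        have h8 : u = 1 := orderOf_eq_one_iff.mp h7
        rw [h8, one_mul]
        exact Subgroup.mul_mem _ (Subgroup.mem_sup_left hv) (Subgroup.mem_sup_right hm)
      set Y : Subgroup G := Q₂ ⊔ N with hYdef
      have hQ₂Y : Q₂ ≤ Y := le_sup_left
      have hNY : N ≤ Y := le_sup_right
      have hQ₂N : Disjoint Q₂ N := by
        rw [disjoint_iff, eq_bot_iff, ← hd₂]; exact inf_le_inf_right N hQ₂C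
      set N' : Subgroup Y := N.subgroupOf Y with hN'def
      haveI : N'.Normal := by rw [hN'def]; infer_instance
      have hcardY : Nat.card Y = Nat.card N * Nat.card Q₂ :=
        card_sup_of_disjoint_normal Q₂ N hQ₂N
      have hcardN' : Nat.card N' = Nat.card N :=
        Nat.card_congr (Subgroup.subgroupOfEquivOfLe hNY).toEquiv
      have hidx : N'.index = Nat.card Q₂ := by
        have h1 := N'.card_mul_index
        rw [hcardN', hcardY] at h1
        exact Nat.eq_of_mul_eq_mul_left Nat.card_pos h1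
      obtain ⟨b, hb⟩ := IsPGroup.iff_card.mp hNp
      have hcop' : (Nat.card N').Coprime N'.index := by
        rw [hcardN', hidx, hb]; exact Nat.Coprime.pow_left b hQ₂cop.symm
      have hsolv : Group.IsSolvable N' := by
        haveI := (IsPGroup.of_card (hcardN'.trans hb) : IsPGroup p N').isNilpotent
        infer_instance
      have hc1 : Nat.card (Q₁.subgroupOf Y) = N'.index := by
        rw [hidx, ← hQQ]; exact Nat.card_congr (Subgroup.subgroupOfEquivOfLe hQ₁Y).toEquiv
      have hc2 : Nat.card (Q₂.subgroupOf Y) = N'.index := by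
        rw [hidx]; exact Nat.card_congr (Subgroup.subgroupOfEquivOfLe hQ₂Y).toEquiv
      obtain ⟨y, hy⟩ := sz_conj_of_solvable_normal N' hcop' hsolv _ _ hc1 hc2
      have hy' : MulAut.conj (y : G) • Q₁ = Q₂ :=
        conj_of_conj_subgroupOf Y Q₁ Q₂ hQ₁Y hQ₂Y y hy
      suffices h : ∃ h : G, MulAut.conj h • (MulAut.conj (y : G) • C₁') = C₂ by
        obtain ⟨h, hh⟩ := h
        exact ⟨h * y, by rw [conj_mul_smul]; exact hh⟩
      have hC₂M : C₂ ≤ Subgroup.normalizer (Q₂ : Set G) := by
        intro c hc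
        exact mem_normalizer_of_forall_conj_mem Q₂ c (fun t ht => hnorm₂ c hc t ht)
      have hC₁M : MulAut.conj (y : G) • C₁' ≤ Subgroup.normalizer (Q₂ : Set G) := by
        intro x hx
        rw [mem_conj_smul] at hx
        apply mem_normalizer_of_forall_conj_mem
        intro t ht
        rw [← hy', mem_conj_smul] at ht ⊢
        have h1 := hnorm₁ _ hx _ ht
        have h2 : (y : G)⁻¹ * (x * t * x⁻¹) * (y : G) =
            ((y : G)⁻¹ * x * y) * ((y : G)⁻¹ * t * y) * ((y : G)⁻¹ * x * y)⁻¹ := by group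
        rw [h2]; exact h1
      by_cases hM : Subgroup.normalizer (Q₂ : Set G) = ⊤
      swap
      · obtain ⟨l, -, hl⟩ :=
          isCar_conj_of_le (ihS _ hM) (isCar_conj hC₁' (y : G)) hC₂ hC₁M hC₂M
        exact ⟨l, hl⟩
      exfalso
      have hQ₂n : Q₂.Normal := Subgroup.normalizer_eq_top_iff.mp hM
      letI : MulAction P₂ N := MulAction.compHom N ((MulAut.conjNormal (H := N)).comp P₂.subtype)
      have hpN : p ∣ Nat.card N := by
        rcases hNp.card_eq_or_dvd with h | h
        · exact absurd ((Subgroup.eq_bot_of_card_eq N h)) hNbot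
        · exact h
      have h1fix : (1 : N) ∈ MulAction.fixedPoints P₂ N := by
        intro u
        show MulAut.conjNormal (u : G) (1 : N) = 1
        exact map_one _
      obtain ⟨z, hzfix, hz1⟩ :=
        hP₂p.exists_fixed_point_of_prime_dvd_card_of_fixed_point N hpN h1fix
      have hzP : ∀ u ∈ P₂, u * (z : G) = (z : G) * u := by
        intro u hu
        have h1 : MulAut.conjNormal (u : G) z = z := hzfix ⟨u, hu⟩
        have h2 : u * (z : G) * u⁻¹ = (z : G) := by
          have := congrArg Subtype.val h1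
          rwa [MulAut.conjNormal_apply] at this
        calc u * (z : G) = (u * (z : G) * u⁻¹) * u := by group
          _ = (z : G) * u := by rw [h2]
      have hzQ : ∀ v ∈ Q₂, v * (z : G) = (z : G) * v := by
        intro v hv
        exact Subgroup.commute_of_normal_of_disjoint Q₂ N hQ₂n hNn hQ₂N v z hv z.2
      have hzC : (z : G) ∈ Subgroup.normalizer (C₂ : Set G) := by
        apply mem_normalizer_of_forall_conj_mem
        intro c hc
        obtain ⟨u, hu, v, hv, rfl⟩ := hdec₂ c hc
        have h1 : (z : G) * (u * v) * (z : G)⁻¹ = u * v := by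
          calc (z : G) * (u * v) * (z : G)⁻¹ = ((z : G) * u) * v * (z : G)⁻¹ := by group
            _ = (u * (z : G)) * v * (z : G)⁻¹ := by rw [hzP u hu]
            _ = u * ((z : G) * v) * (z : G)⁻¹ := by group
            _ = u * (v * (z : G)) * (z : G)⁻¹ := by rw [hzQ v hv]
            _ = u * v := by group
        rw [h1]; exact hc
      rw [hC₂.2] at hzC
      have hz0 : (z : G) ∈ C₂ ⊓ N := ⟨hzC, z.2⟩
      rw [hd₂, Subgroup.mem_bot] at hz0
      exact hz1 (Subtype.ext hz0.symm)

/-- Carter subgroups of a finite solvable group exist and are conjugate. -/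
theorem carter (G : Type u) [Group G] [Finite G] [Group.IsSolvable G] :
    (∃ C : Subgroup G, IsCar C) ∧
    (∀ C D : Subgroup G, IsCar C → IsCar D → ∃ g : G, MulAut.conj g • C = D) :=
  carter_aux (Nat.card G) G le_rfl
  
end Cfsg.Agent.Lib.helper1
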