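import Mathlib
import Cfsg.Agent.Lib.helper4.UPerp

set_option autoImplicit false
set_option linter.style.haveILetI false

namespace Cfsg.Agent.Lib.helper1.E27k3

open Matrix Cfsg.Agent.Lib.helper4

theorem eig_det {F : Type*} [Field F] (M : Matrix (Fin 3) (Fin 3) F) (Y : Fin 3 → (Fin 3 → F))
    (d : Fin 3 → F) (hY : LinearIndependent F Y) (hM : ∀ j, M *ᵥ Y j = d j • Y j) :
    M.det = d 0 * d 1 * d 2 := by
  obtain ⟨P, hP⟩ : ∃ P : Matrix (Fin 3) (Fin 3) F, P = Matrix.of (fun i j => Y j i) := ⟨_, rfl⟩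
  have hMP : M * P = P * Matrix.diagonal d := by
    ext i j
    rw [Matrix.mul_diagonal]
    have h1 := congrFun (hM j) i
    rw [hP]
    simp only [Matrix.mul_apply, Matrix.of_apply]
    simp only [Matrix.mulVec, dotProduct, Pi.smul_apply, smul_eq_mul] at h1
    rw [h1, mul_comm]
  have hPu : IsUnit P := by
    rw [← Matrix.linearIndependent_cols_iff_isUnit]
    have h2 : P.col = Y := by
      funext j i
      rw [hP]
      rfl
    rw [h2]
    exact hY
  have hdetP : P.det ≠ 0 := ((Matrix.isUnit_iff_isUnit_det P).mp hPu).ne_zero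
  have h2 := congrArg Matrix.det hMP
  rw [Matrix.det_mul, Matrix.det_mul, Matrix.det_diagonal, Fin.prod_univ_three] at h2
  have h3 : P.det * M.det = P.det * (d 0 * d 1 * d 2) := by
    rw [mul_comm, h2]
  exact mul_left_cancel₀ hdetP h3

theorem eq_zero_of_mulVec {F : Type*} [Field F] (N : Matrix (Fin 3) (Fin 3) F)
    (h : ∀ v, N *ᵥ v = 0) : N = 0 := by
  classical
  ext i j
  have h1 := congrFun (h (Pi.single j 1)) i
  simpa using h1

theorem two_eig {F : Type*} [Field F] [Fintype F] {q : ℕ} (hF : Fintype.card F = q ^ 2) (X : GL (Fin 3) F) (hX : X ∈ Cfsg.GU 3 F q) (l m : F) (hlm : l ≠ m) (hl : l * m ^ q ≠ 1) (hquad : ((X : Matrix (Fin 3) (Fin 3) F) - l • 1) * ((X : Matrix (Fin 3) (Fin 3) F) - m • 1) = 0) (hdet : (X : Matrix (Fin 3) (Fin 3) F).det = l * m ^ 2) (hns : ∀ z : F, (X : Matrix (Fin 3) (Fin 3) F) ≠ z • (1 : Matrix (Fin 3) (Fin 3) F)) : ∃ W : Fin 3 → (Fin 3 → F), LinearIndependent F W ∧ (∀ i j, i ≠ j → Cfsg.hermForm 3 F q (W i) (W j) = 0) ∧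 (X : Matrix (Fin 3) (Fin 3) F) *ᵥ W 0 = l • W 0 ∧ (X : Matrix (Fin 3) (Fin 3) F) *ᵥ W 1 = m • W 1 ∧ (X : Matrix (Fin 3) (Fin 3) F) *ᵥ W 2 = m • W 2 := by
  classical
  have hU : ∀ u v, Cfsg.hermForm 3 F q ((X : Matrix (Fin 3) (Fin 3) F) *ᵥ u)
      ((X : Matrix (Fin 3) (Fin 3) F) *ᵥ v) = Cfsg.hermForm 3 F q u v := (mem_GU_iff X).mp hX
  have hdet0 : (X : Matrix (Fin 3) (Fin 3) F).det ≠ 0 :=
    ((Matrix.isUnit_iff_isUnit_det _).mp X.isUnit).ne_zero
  obtain ⟨M, hM⟩ : ∃ M : Matrix (Fin 3) (Fin 3) F, M = (X : Matrix (Fin 3) (Fin 3) F) :=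
    ⟨_, rfl⟩
  rw [← hM] at hquad hdet hns hU hdet0
  rw [← hM]
  have hl0 : l ≠ 0 := by
    rintro rfl
    rw [zero_mul] at hdet
    exact hdet0 hdet
  have hm0 : m ≠ 0 := by
    rintro rfl
    apply hdet0
    rw [hdet]
    simp
  have hquad' : (M - m • 1) * (M - l • 1) = 0 := by
    rw [← hquad]
    simp only [sub_mul, mul_sub, Matrix.mul_smul, Matrix.smul_mul, mul_one, one_mul, smul_smul]
    rw [mul_comm m l]
    abel
  have hEl : ∀ v, M *ᵥ ((M - m • 1) *ᵥ v) = l • ((M - m • 1) *ᵥ v) := by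
    intro v
    have h1 : (M - l • 1) *ᵥ ((M - m • 1) *ᵥ v) = 0 := by
      rw [Matrix.mulVec_mulVec, hquad, Matrix.zero_mulVec]
    rw [Matrix.sub_mulVec, Matrix.smul_mulVec, Matrix.one_mulVec] at h1
    exact sub_eq_zero.mp h1
  have hEm : ∀ v, M *ᵥ ((M - l • 1) *ᵥ v) = m • ((M - l • 1) *ᵥ v) := by
    intro v
    have h1 : (M - m • 1) *ᵥ ((M - l • 1) *ᵥ v) = 0 := by
      rw [Matrix.mulVec_mulVec, hquad', Matrix.zero_mulVec]
    rw [Matrix.sub_mulVec, Matrix.smul_mulVec, Matrix.one_mulVec] at h1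
    exact sub_eq_zero.mp h1
  have hdec : ∀ v, (l - m) • v = (M - m • 1) *ᵥ v - (M - l • 1) *ᵥ v := by
    intro v
    rw [Matrix.sub_mulVec, Matrix.sub_mulVec, Matrix.smul_mulVec, Matrix.smul_mulVec,
      Matrix.one_mulVec, sub_smul]
    abel
  have horth : ∀ a b, M *ᵥ a = l • a → M *ᵥ b = m • b → Cfsg.hermForm 3 F q a b = 0 := by
    intro a b ha hb
    have h1 := hU a b
    rw [ha, hb, herm_smul_left, herm_smul_right] at h1
    have h2 : (l * m ^ q - 1) * Cfsg.hermForm 3 F q a b = 0 := by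
      rw [sub_mul, one_mul, mul_assoc, h1, sub_self]
    rcases mul_eq_zero.mp h2 with h3 | h3
    · exact absurd (sub_eq_zero.mp h3) hl
    · exact h3
  obtain ⟨u, hu⟩ : ∃ u, (M - m • 1) *ᵥ u ≠ 0 := by
    by_contra hcon
    push Not at hcon
    exact hns m (sub_eq_zero.mp (eq_zero_of_mulVec _ hcon))
  obtain ⟨u', hu'⟩ : ∃ u', (M - l • 1) *ᵥ u' ≠ 0 := by
    by_contra hcon
    push Not at hcon
    exact hns l (sub_eq_zero.mp (eq_zero_of_mulVec _ hcon))
  obtain ⟨W0, hW0⟩ : ∃ W0, W0 = (M - m • 1) *ᵥ u := ⟨_, rfl⟩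
  have hW0ne : W0 ≠ 0 := by
    rw [hW0]
    exact hu
  have hW0e : M *ᵥ W0 = l • W0 := by
    rw [hW0]
    exact hEl u
  obtain ⟨w, hw⟩ : ∃ w, w = (M - l • 1) *ᵥ u' := ⟨_, rfl⟩
  have hwe : M *ᵥ w = m • w := by
    rw [hw]
    exact hEm u'
  have hwne : w ≠ 0 := by
    rw [hw]
    exact hu'
  have hspan : ∀ y, M *ᵥ y = l • y → ∃ c : F, y = c • W0 := by
    intro y hy
    by_contra hcon
    push Not at hcon
    have hind : LinearIndependent F ![W0, y, w] := by
      rw [Fintype.linearIndependent_iff]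
      intro g hg
      rw [Fin.sum_univ_three] at hg
      have hg' : g 0 • W0 + g 1 • y + g 2 • w = 0 := hg
      have h1 : M *ᵥ (g 0 • W0 + g 1 • y + g 2 • w) - l • (g 0 • W0 + g 1 • y + g 2 • w) = 0 := by
        rw [hg', Matrix.mulVec_zero, smul_zero, sub_zero]
      rw [Matrix.mulVec_add, Matrix.mulVec_add, Matrix.mulVec_smul, Matrix.mulVec_smul,
        Matrix.mulVec_smul, hW0e, hy, hwe] at h1
      have h2 : (g 2 * (m - l)) • w = 0 := by
        rw [← h1]
        simp only [smul_add, smul_smul, mul_sub, sub_smul]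
        rw [mul_comm (g 0) l, mul_comm (g 1) l, mul_comm l (g 2)]
        abel
      have hg2 : g 2 = 0 := by
        rcases smul_eq_zero.mp h2 with h3 | h3
        · rcases mul_eq_zero.mp h3 with h4 | h4
          · exact h4
          · exact absurd (sub_eq_zero.mp h4) (Ne.symm hlm)
        · exact absurd h3 hwne
      rw [hg2, zero_smul, add_zero] at hg'
      have hg1 : g 1 = 0 := by
        by_contra h5
        apply hcon ((g 1)⁻¹ * (-(g 0)))
        have h6 : g 1 • y = (-(g 0)) • W0 := by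
          rw [neg_smul]
          exact eq_neg_of_add_eq_zero_right hg'
        rw [mul_smul, ← h6, smul_smul, inv_mul_cancel₀ h5, one_smul]
      rw [hg1, zero_smul, add_zero] at hg'
      have hg0 : g 0 = 0 := by
        rcases smul_eq_zero.mp hg' with h6 | h6
        · exact h6
        · exact absurd h6 hW0ne
      intro i
      fin_cases i
      · exact hg0
      · exact hg1
      · exact hg2
    have hdet2 := eig_det M ![W0, y, w] ![l, l, m] hind (by
      intro j
      fin_cases j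
      · exact hW0e
      · exact hy
      · exact hwe)
    have hdet3 : M.det = l * l * m := hdet2
    rw [hdet] at hdet3
    have h7 : l * m * (m - l) = 0 := by linear_combination hdet3
    rcases mul_eq_zero.mp h7 with h8 | h8
    · rcases mul_eq_zero.mp h8 with h9 | h9
      · exact hl0 h9
      · exact hm0 h9
    · exact hlm (sub_eq_zero.mp h8).symm
  have hlm' : l - m ≠ 0 := sub_ne_zero.mpr hlm
  have hW0a : Cfsg.hermForm 3 F q W0 W0 ≠ 0 := by
    intro h0
    apply hW0ne
    apply herm_nondeg hF W0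
    intro v
    obtain ⟨c, hc⟩ := hspan _ (hEl v)
    have h1 : Cfsg.hermForm 3 F q W0 ((l - m) • v) = 0 := by
      rw [hdec v, herm_sub_right hF, hc, herm_smul_right, h0, mul_zero,
        horth W0 _ hW0e (hEm v), sub_zero]
    rw [herm_smul_right] at h1
    rcases mul_eq_zero.mp h1 with h2 | h2
    · exact absurd h2 (pow_ne_zero q hlm')
    · exact h2
  have hperp : ∀ v, Cfsg.hermForm 3 F q v W0 = 0 → M *ᵥ v = m • v := by
    intro v hv
    obtain ⟨c, hc⟩ := hspan _ (hEl v)
    have h1 : Cfsg.hermForm 3 F q ((l - m) • v) W0 = c * Cfsg.hermForm 3 F q W0 W0 := by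
      rw [hdec v, herm_sub_left, hc, herm_smul_left,
        herm_zero_of_symm hF (horth W0 _ hW0e (hEm v)), sub_zero]
    rw [herm_smul_left, hv, mul_zero] at h1
    have hc0 : c = 0 := by
      rcases mul_eq_zero.mp h1.symm with h2 | h2
      · exact h2
      · exact absurd h2 hW0a
    rw [hc0, zero_smul] at hc
    rw [Matrix.sub_mulVec, Matrix.smul_mulVec, Matrix.one_mulVec] at hc
    exact sub_eq_zero.mp hc
  have hnd : ∀ y ∈ (⊤ : Submodule F (Fin 3 → F)), y ≠ 0 →
      ∃ x ∈ (⊤ : Submodule F (Fin 3 → F)), Cfsg.hermForm 3 F q y x ≠ 0 := by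
    intro y _ hy
    by_contra hcon
    push Not at hcon
    exact hy (herm_nondeg hF y (fun x => hcon x Submodule.mem_top))
  obtain ⟨W1, -, hW10, hW1a⟩ := exists_aniso_in hF (⊤ : Submodule F (Fin 3 → F)) hnd
    (by rw [finrank_top, Module.finrank_fin_fun]) W0 Submodule.mem_top
  obtain ⟨W2, hW2k, hW2ne⟩ :
      ∃ W2 ∈ LinearMap.ker ((uB hF 3 W0).prod (uB hF 3 W1)), W2 ≠ 0 := by
    have h1 : LinearMap.ker ((uB hF 3 W0).prod (uB hF 3 W1)) ≠ ⊥ := by
      apply LinearMap.ker_ne_bot_of_finrank_lt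
      rw [Module.finrank_prod, Module.finrank_self, Module.finrank_fin_fun]
      norm_num
    exact (Submodule.ne_bot_iff _).mp h1
  have hW2k' := LinearMap.mem_ker.mp hW2k
  rw [LinearMap.prod_apply, Prod.mk_eq_zero] at hW2k'
  have hW20 : Cfsg.hermForm 3 F q W2 W0 = 0 := hW2k'.1
  have hW21 : Cfsg.hermForm 3 F q W2 W1 = 0 := hW2k'.2
  refine ⟨![W0, W1, W2], ?_, ?_, hW0e, hperp W1 hW10, hperp W2 hW20⟩
  · rw [Fintype.linearIndependent_iff]
    intro g hg
    rw [Fin.sum_univ_three] at hg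
    have hg' : g 0 • W0 + g 1 • W1 + g 2 • W2 = 0 := hg
    have h0 : g 0 = 0 := by
      have h1 : Cfsg.hermForm 3 F q (g 0 • W0 + g 1 • W1 + g 2 • W2) W0 = 0 := by
        rw [hg', herm_zero_left]
      rw [herm_add_left, herm_add_left, herm_smul_left, herm_smul_left, herm_smul_left, hW10,
        hW20, mul_zero, mul_zero, add_zero, add_zero] at h1
      rcases mul_eq_zero.mp h1 with h2 | h2
      · exact h2
      · exact absurd h2 hW0a
    have h1' : g 1 = 0 := by
      have h1 : Cfsg.hermForm 3 F q (g 0 • W0 + g 1 • W1 + g 2 • W2) W1 = 0 := by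
        rw [hg', herm_zero_left]
      rw [herm_add_left, herm_add_left, herm_smul_left, herm_smul_left, herm_smul_left,
        herm_zero_of_symm hF hW10, hW21, mul_zero, mul_zero, zero_add, add_zero] at h1
      rcases mul_eq_zero.mp h1 with h2 | h2
      · exact h2
      · exact absurd h2 hW1a
    rw [h0, h1', zero_smul, zero_smul, zero_add, zero_add] at hg'
    have h2' : g 2 = 0 := by
      rcases smul_eq_zero.mp hg' with h2 | h2
      · exact h2
      · exact absurd h2 hW2ne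
    intro i
    fin_cases i
    · exact h0
    · exact h1'
    · exact h2'
  · intro i j hij
    fin_cases i <;> fin_cases j
    · exact absurd rfl hij
    · exact herm_zero_of_symm hF hW10
    · exact herm_zero_of_symm hF hW20
    · exact hW10
    · exact absurd rfl hij
    · exact herm_zero_of_symm hF hW21
    · exact hW20
    · exact hW21
    · exact absurd rfl hij

end Cfsg.Agent.Lib.helper1.E27k3
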