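import Mathlib
import Cfsg.Prelude.Def_Solvable
import Cfsg.Agent.Lib.helper1.Frob

set_option autoImplicit false
open Pointwise

namespace Cfsg.Agent.Lib.helper1

/-- For an involution `t` of a Frobenius complement `H` and `a ∉ H`, the product `t t^a` is a
nonidentity element of the Frobenius kernel. -/
theorem frob_invol_mul_mem {G : Type*} [Group G] {H : Subgroup G}
    (hH : Cfsg.IsFrobeniusComplement H) {t : G} (ht : t ∈ H) (ht1 : t ≠ 1) (ht2 : t * t = 1)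
    {a : G} (ha : a ∉ H) :
    t * (a * t * a⁻¹) ∈ Cfsg.frobeniusKernel H ∧ t * (a * t * a⁻¹) ≠ 1 := by
  have htinv : t⁻¹ = t := inv_eq_of_mul_eq_one_left ht2
  set t' := a * t * a⁻¹ with ht'
  have ht'2 : t' * t' = 1 := by
    rw [ht']
    calc a * t * a⁻¹ * (a * t * a⁻¹) = a * (t * t) * a⁻¹ := by group
      _ = 1 := by rw [ht2]; group
  have ht'inv : t'⁻¹ = t' := inv_eq_of_mul_eq_one_left ht'2
  have hne : t * t' ≠ 1 := by
    intro h
    have h1 : t' = t := by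
      have := eq_inv_of_mul_eq_one_right h
      rw [htinv] at this; exact this
    apply ha
    apply frob_mem_of_conj' hH ht ht1
    rw [← ht', h1]; exact ht
  refine ⟨?_, hne⟩
  by_contra hK
  rw [mem_frobeniusKernel_iff] at hK
  push Not at hK
  obtain ⟨-, y, hy⟩ := hK
  set d := t * t' with hd
  set e := y⁻¹ * d * y with he
  have he1 : e ≠ 1 := by
    intro h
    apply hne
    have := congrArg (fun x => y * x * y⁻¹) h
    simp only [he] at this
    simpa [mul_assoc] using this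
  have hdinv : d⁻¹ = t' * t := by rw [hd, mul_inv_rev, htinv, ht'inv]
  -- `t` inverts `d`
  have h1 : t * d * t⁻¹ = d⁻¹ := by
    rw [hdinv, hd, htinv]
    calc t * (t * t') * t = (t * t) * t' * t := by group
      _ = t' * t := by rw [ht2, one_mul]
  have h2 : t' * d * t'⁻¹ = d⁻¹ := by
    rw [hdinv, hd, ht'inv]
    calc t' * (t * t') * t' = t' * t * (t' * t') := by group
      _ = t' * t := by rw [ht'2, mul_one]
  have hu : y⁻¹ * t * y ∈ H := by
    apply frob_mem_of_conj' hH hy he1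
    have e1 : y⁻¹ * t * y * e * (y⁻¹ * t * y)⁻¹ = y⁻¹ * (t * d * t⁻¹) * y := by
      rw [he]; group
    rw [e1, h1]
    have e2 : y⁻¹ * d⁻¹ * y = e⁻¹ := by rw [he]; group
    rw [e2]; exact H.inv_mem hy
  have hu' : y⁻¹ * t' * y ∈ H := by
    apply frob_mem_of_conj' hH hy he1
    have e1 : y⁻¹ * t' * y * e * (y⁻¹ * t' * y)⁻¹ = y⁻¹ * (t' * d * t'⁻¹) * y := by
      rw [he]; group
    rw [e1, h2]
    have e2 : y⁻¹ * d⁻¹ * y = e⁻¹ := by rw [he]; group
    rw [e2]; exact H.inv_mem hy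
  have hyH : y ∈ H := frob_mem_of_conj hH ht ht1 hu
  have ht'H : t' ∈ H := by
    have e1 : t' = y * (y⁻¹ * t' * y) * y⁻¹ := by group
    rw [e1]
    exact H.mul_mem (H.mul_mem hyH hu') (H.inv_mem hyH)
  exact ha (frob_mem_of_conj' hH ht ht1 ht'H)

/-- Every element of the Frobenius kernel is `1` or of the form `t t^a` with `a ∉ H`. -/
theorem frob_kernel_eq_invol_mul {G : Type*} [Group G] [Finite G] {H : Subgroup G}
    (hH : Cfsg.IsFrobeniusComplement H) {t : G} (ht : t ∈ H) (ht1 : t ≠ 1) (ht2 : t * t = 1)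
    {k : G} (hk : k ∈ Cfsg.frobeniusKernel H) :
    k = 1 ∨ ∃ a : G, a ∉ H ∧ k = t * (a * t * a⁻¹) := by
  classical
  let ψ : G ⧸ H → G := fun q =>
    if q = ((1 : G) : G ⧸ H) then 1 else t * (q.out * t * (q.out)⁻¹)
  have hout : ∀ q : G ⧸ H, q ≠ ((1 : G) : G ⧸ H) → q.out ∉ H := by
    intro q hq hmem
    apply hq
    rw [← QuotientGroup.out_eq' q]
    apply QuotientGroup.eq.mpr
    simpa using hmem
  have hψK : ∀ q, ψ q ∈ Cfsg.frobeniusKernel H := by
    intro q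
    by_cases hq : q = ((1 : G) : G ⧸ H)
    · simp only [ψ, if_pos hq]
      rw [mem_frobeniusKernel_iff]; exact Or.inl rfl
    · simp only [ψ, if_neg hq]
      exact (frob_invol_mul_mem hH ht ht1 ht2 (hout q hq)).1
  have hψinj : Function.Injective ψ := by
    intro q₁ q₂ heq
    by_cases hq₁ : q₁ = ((1 : G) : G ⧸ H)
    · by_cases hq₂ : q₂ = ((1 : G) : G ⧸ H)
      · rw [hq₁, hq₂]
      · exfalso
        simp only [ψ, if_pos hq₁, if_neg hq₂] at heq
        exact (frob_invol_mul_mem hH ht ht1 ht2 (hout q₂ hq₂)).2 heq.symm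
    · by_cases hq₂ : q₂ = ((1 : G) : G ⧸ H)
      · exfalso
        simp only [ψ, if_neg hq₁, if_pos hq₂] at heq
        exact (frob_invol_mul_mem hH ht ht1 ht2 (hout q₁ hq₁)).2 heq
      · simp only [ψ, if_neg hq₁, if_neg hq₂] at heq
        have h1 : q₁.out * t * (q₁.out)⁻¹ = q₂.out * t * (q₂.out)⁻¹ := mul_left_cancel heq
        have h2 : (q₂.out)⁻¹ * q₁.out ∈ H := by
          apply frob_mem_of_conj' hH ht ht1
          have e : (q₂.out)⁻¹ * q₁.out * t * ((q₂.out)⁻¹ * q₁.out)⁻¹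
              = (q₂.out)⁻¹ * (q₁.out * t * (q₁.out)⁻¹) * q₂.out := by group
          rw [e, h1]
          have e2 : (q₂.out)⁻¹ * (q₂.out * t * (q₂.out)⁻¹) * q₂.out = t := by group
          rw [e2]; exact ht
        have h3 := (QuotientGroup.eq (s := H)).mpr h2
        rw [QuotientGroup.out_eq', QuotientGroup.out_eq'] at h3
        exact h3.symm
  have hrange : Set.range ψ = Cfsg.frobeniusKernel H := by
    apply Set.eq_of_subset_of_ncard_le
    · rintro _ ⟨q, rfl⟩; exact hψK q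
    · rw [Set.ncard_range_of_injective hψinj, ← Nat.card_coe_set_eq, card_frobeniusKernel hH]
      rfl
    · exact Set.toFinite _
  rw [← hrange] at hk
  obtain ⟨q, rfl⟩ := hk
  by_cases hq : q = ((1 : G) : G ⧸ H)
  · left; simp only [ψ, if_pos hq]
  · right
    exact ⟨q.out, hout q hq, by simp only [ψ, if_neg hq]⟩

/-- Every conjugate of the involution `t` inverts the Frobenius kernel. -/
theorem frob_invol_inverts {G : Type*} [Group G] [Finite G] {H : Subgroup G}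
    (hH : Cfsg.IsFrobeniusComplement H) {t : G} (ht : t ∈ H) (ht1 : t ≠ 1) (ht2 : t * t = 1)
    (b : G) {k : G} (hk : k ∈ Cfsg.frobeniusKernel H) :
    (b * t * b⁻¹) * k * (b * t * b⁻¹)⁻¹ = k⁻¹ := by
  have htinv : t⁻¹ = t := inv_eq_of_mul_eq_one_left ht2
  have key : ∀ k' ∈ Cfsg.frobeniusKernel H, t * k' * t⁻¹ = k'⁻¹ := by
    intro k' hk'
    rcases frob_kernel_eq_invol_mul hH ht ht1 ht2 hk' with rfl | ⟨a, -, rfl⟩
    · simp
    · rw [htinv]
      have e : (t * (a * t * a⁻¹))⁻¹ = a * t * a⁻¹ * t := by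
        rw [mul_inv_rev, htinv]
        congr 1
        rw [mul_inv_rev, mul_inv_rev, inv_inv, htinv, mul_assoc]
      rw [e]
      calc t * (t * (a * t * a⁻¹)) * t = (t * t) * (a * t * a⁻¹) * t := by group
        _ = a * t * a⁻¹ * t := by rw [ht2, one_mul]
  have h1 : b⁻¹ * k * b⁻¹⁻¹ ∈ Cfsg.frobeniusKernel H := conj_mem_frobeniusKernel H hk b⁻¹
  have h2 := key _ h1
  calc (b * t * b⁻¹) * k * (b * t * b⁻¹)⁻¹ = b * (t * (b⁻¹ * k * b⁻¹⁻¹) * t⁻¹) * b⁻¹ := by group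
    _ = b * (b⁻¹ * k * b⁻¹⁻¹)⁻¹ * b⁻¹ := by rw [h2]
    _ = k⁻¹ := by group

/-- The Frobenius kernel is a commuting set when the complement has an involution. -/
theorem frob_kernel_comm {G : Type*} [Group G] [Finite G] {H : Subgroup G}
    (hH : Cfsg.IsFrobeniusComplement H) {t : G} (ht : t ∈ H) (ht1 : t ≠ 1) (ht2 : t * t = 1)
    {k₁ k₂ : G} (hk₁ : k₁ ∈ Cfsg.frobeniusKernel H) (hk₂ : k₂ ∈ Cfsg.frobeniusKernel H) :
    k₁ * k₂ = k₂ * k₁ := by
  rcases frob_kernel_eq_invol_mul hH ht ht1 ht2 hk₁ with rfl | ⟨a, -, rfl⟩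
  · simp
  · have h1 := frob_invol_inverts hH ht ht1 ht2 a hk₂
    have hk₂' : k₂⁻¹ ∈ Cfsg.frobeniusKernel H := by
      rw [← h1]
      exact conj_mem_frobeniusKernel H hk₂ _
    have h2 := frob_invol_inverts hH ht ht1 ht2 1 hk₂'
    simp only [one_mul, inv_one, mul_one, inv_inv] at h2
    -- (t s) k₂ (t s)⁻¹ = k₂
    have h3 : t * (a * t * a⁻¹) * k₂ * (t * (a * t * a⁻¹))⁻¹ = k₂ := by
      calc t * (a * t * a⁻¹) * k₂ * (t * (a * t * a⁻¹))⁻¹
          = t * ((a * t * a⁻¹) * k₂ * (a * t * a⁻¹)⁻¹) * t⁻¹ := by group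
        _ = t * k₂⁻¹ * t⁻¹ := by rw [h1]
        _ = k₂ := h2
    have := congrArg (fun x => x * (t * (a * t * a⁻¹))) h3
    simpa [mul_assoc] using this

/-- With an involution in the complement, the Frobenius kernel is closed under multiplication. -/
theorem frob_kernel_mul_mem {G : Type*} [Group G] [Finite G] {H : Subgroup G}
    (hH : Cfsg.IsFrobeniusComplement H) {t : G} (ht : t ∈ H) (ht1 : t ≠ 1) (ht2 : t * t = 1)
    {k₁ k₂ : G} (hk₁ : k₁ ∈ Cfsg.frobeniusKernel H) (hk₂ : k₂ ∈ Cfsg.frobeniusKernel H) :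
    k₁ * k₂ ∈ Cfsg.frobeniusKernel H := by
  by_contra hK
  rw [mem_frobeniusKernel_iff] at hK
  push Not at hK
  obtain ⟨hne, y, hy⟩ := hK
  have hk₁' : y⁻¹ * k₁ * y⁻¹⁻¹ ∈ Cfsg.frobeniusKernel H := conj_mem_frobeniusKernel H hk₁ y⁻¹
  have hk₂' : y⁻¹ * k₂ * y⁻¹⁻¹ ∈ Cfsg.frobeniusKernel H := conj_mem_frobeniusKernel H hk₂ y⁻¹
  set c₁ := y⁻¹ * k₁ * y⁻¹⁻¹ with hc₁
  set c₂ := y⁻¹ * k₂ * y⁻¹⁻¹ with hc₂
  have hh : c₁ * c₂ = y⁻¹ * (k₁ * k₂) * y := by rw [hc₁, hc₂]; group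
  have hhH : c₁ * c₂ ∈ H := by rw [hh]; exact hy
  have hh1 : c₁ * c₂ ≠ 1 := by
    intro h
    apply hne
    rw [hh] at h
    have := congrArg (fun x => y * x * y⁻¹) h
    simpa [mul_assoc] using this
  -- pick `b ∉ H`
  obtain ⟨b, hb⟩ : ∃ b : G, b ∉ H := by
    by_contra hcon
    push Not at hcon
    exact hH.2.1 (eq_top_iff.mpr (fun g _ => hcon g))
  set s := b * t * b⁻¹ with hs
  have hs1 := frob_invol_inverts hH ht ht1 ht2 b hk₁'
  have hs2 := frob_invol_inverts hH ht ht1 ht2 b hk₂'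
  have hcomm := frob_kernel_comm hH ht ht1 ht2 hk₁' hk₂'
  have hsh : s * (c₁ * c₂) * s⁻¹ = (c₁ * c₂)⁻¹ := by
    calc s * (c₁ * c₂) * s⁻¹ = (s * c₁ * s⁻¹) * (s * c₂ * s⁻¹) := by group
      _ = c₁⁻¹ * c₂⁻¹ := by rw [hs1, hs2]
      _ = (c₂ * c₁)⁻¹ := (mul_inv_rev c₂ c₁).symm
      _ = (c₁ * c₂)⁻¹ := by rw [hcomm]
  have hsH : s ∈ H := by
    apply frob_mem_of_conj' hH hhH hh1
    rw [hsh]; exact H.inv_mem hhH
  exact hb (frob_mem_of_conj' hH ht ht1 hsH)

end Cfsg.Agent.Lib.helper1
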