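import Mathlib
import Cfsg.Agent.Lib.helper1.SZ

/-! Gaschütz's theorem: machinery (sections, the action of `G`, the averaged difference). -/

set_option autoImplicit false

namespace Cfsg.Agent.Lib.helper1

open scoped IsMulCommutative
open Pointwise

section Gaschutz

variable {G : Type*} [Group G] [Finite G] {K U A : Subgroup G} [K.Normal] [IsMulCommutative K]

variable (K A) in
/-- `K`-valued functions on `G` that are right `K`-equivariant and left `A`-invariant. -/
def IsSec (κ : G → K) : Prop :=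
  (∀ (g : G) (k : K), κ (g * k) = κ g * k) ∧ (∀ a ∈ A, ∀ g, κ (a * g) = κ g)

variable (K) in
/-- The action of `G` on sections. -/
def gact (x : G) (κ : G → K) : G → K := fun g => MulAut.conjNormal x (κ (g * x))

variable (K) in
theorem gact_one (κ : G → K) : gact K 1 κ = κ := by
  funext g; simp [gact]

variable (K) in
theorem gact_mul (x y : G) (κ : G → K) : gact K (x * y) κ = gact K x (gact K y κ) := by
  funext g; simp [gact, mul_assoc]

theorem conjNormal_mem_self (k m : K) : MulAut.conjNormal (k : G) m = m := by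
  apply Subtype.ext
  rw [MulAut.conjNormal_apply]
  have : ((k * m * k⁻¹ : K) : G) = m := by
    rw [mul_comm k m, mul_inv_cancel_right]
  exact this

theorem isSec_gact (x : G) {κ : G → K} (hκ : IsSec K A κ) : IsSec K A (gact K x κ) := by
  refine ⟨fun g k => ?_, fun a ha g => ?_⟩
  · have h1 : g * (k : G) * x = g * x * ((MulAut.conjNormal x⁻¹ k : K) : G) := by
      rw [MulAut.conjNormal_apply]; group
    simp only [gact]
    rw [h1, hκ.1, map_mul, ← MulAut.mul_apply, ← map_mul, mul_inv_cancel, map_one, MulAut.one_apply]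
  · simp only [gact]
    rw [mul_assoc, hκ.2 a ha]

theorem gact_mem {κ : G → K} (hκ : IsSec K A κ) (k : K) (g : G) :
    gact K (k : G) κ g = κ g * k := by
  simp only [gact]
  rw [hκ.1, conjNormal_mem_self]

variable (K) in
/-- The pointwise quotient of two sections. -/
def fd (κ κ' : G → K) : G → K := fun g => κ g * (κ' g)⁻¹

theorem fd_uinv (hKA : K ⊔ A = U) {κ κ' : G → K} (hκ : IsSec K A κ)
    (hκ' : IsSec K A κ') (u : G) (hu : u ∈ U) (g : G) : fd K κ κ' (u * g) = fd K κ κ' g := by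
  rw [← hKA] at hu
  obtain ⟨k, hk, a, ha, rfl⟩ := Subgroup.mem_sup_of_normal_left.mp hu
  have hc : (a * g)⁻¹ * k * (a * g) ∈ K := by
    have := ‹K.Normal›.conj_mem k hk (a * g)⁻¹
    simpa using this
  have h1 : k * a * g = a * g * ((⟨_, hc⟩ : K) : G) := by
    simp only; group
  simp only [fd]
  rw [h1, hκ.1, hκ'.1, hκ.2 a ha, hκ'.2 a ha]
  group

/-- A `Fintype` structure on the coset space (local to this file). -/
noncomputable local instance gaschutzQuotFintype : Fintype (G ⧸ U) := Fintype.ofFinite _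

variable (K U) in
/-- The averaged difference of two sections. -/
noncomputable def gdiff (κ κ' : G → K) : K :=
  ∏ q : G ⧸ U, fd K κ κ' (q.out)⁻¹

variable (K U) in
theorem gdiff_self (κ : G → K) : gdiff K U κ κ = 1 := by
  simp [gdiff, fd]

variable (K U) in
theorem gdiff_mul (κ κ' κ'' : G → K) : gdiff K U κ κ' * gdiff K U κ' κ'' = gdiff K U κ κ'' := by
  simp only [gdiff]
  rw [← Finset.prod_mul_distrib]
  refine Finset.prod_congr rfl fun q _ => ?_
  simp only [fd]; group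

variable (K U) in
theorem gdiff_inv (κ κ' : G → K) : (gdiff K U κ κ')⁻¹ = gdiff K U κ' κ := by
  have := gdiff_mul K U κ κ' κ
  rw [gdiff_self] at this
  exact inv_eq_of_mul_eq_one_right this

theorem prod_reindex (F : G → K) (hF : ∀ u ∈ U, ∀ g, F (u * g) = F g) (x : G) :
    ∏ q : G ⧸ U, F ((q.out)⁻¹ * x) = ∏ q : G ⧸ U, F (q.out)⁻¹ := by
  rw [← Equiv.prod_comp (MulAction.toPerm x⁻¹ : Equiv.Perm (G ⧸ U)) (fun q => F (q.out)⁻¹)]
  refine Finset.prod_congr rfl fun q _ => ?_
  have h1 : (MulAction.toPerm x⁻¹ : Equiv.Perm (G ⧸ U)) q = QuotientGroup.mk (x⁻¹ * q.out) := by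
    rw [MulAction.toPerm_apply]
    conv_lhs => rw [← q.out_eq']
    rfl
  rw [h1]
  obtain ⟨u, hu⟩ := QuotientGroup.mk_out_eq_mul U (x⁻¹ * q.out)
  rw [hu]
  have h2 : (x⁻¹ * q.out * (u : G))⁻¹ = (u : G)⁻¹ * ((q.out)⁻¹ * x) := by group
  rw [h2, hF _ (U.inv_mem u.2)]

theorem gdiff_gact (hKA : K ⊔ A = U) {κ κ' : G → K} (hκ : IsSec K A κ)
    (hκ' : IsSec K A κ') (x : G) :
    gdiff K U (gact K x κ) (gact K x κ') = MulAut.conjNormal x (gdiff K U κ κ') := by
  have h := prod_reindex (fd K κ κ') (fd_uinv hKA hκ hκ') x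
  simp only [gdiff]
  rw [← h, map_prod]
  refine Finset.prod_congr rfl fun q _ => ?_
  simp [fd, gact]

theorem gdiff_gact_mem {κ : G → K} (hκ : IsSec K A κ) (k : K) :
    gdiff K U (gact K (k : G) κ) κ = k ^ U.index := by
  simp only [gdiff]
  have : ∀ q : G ⧸ U, fd K (gact K (k : G) κ) κ (q.out)⁻¹ = k := by
    intro q
    simp only [fd]
    rw [gact_mem hκ, mul_comm, inv_mul_cancel_left]
  rw [Finset.prod_congr rfl fun q _ => this q, Finset.prod_const, Finset.card_univ,
    Subgroup.index_eq_card, Nat.card_eq_fintype_card]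

/-- The stabiliser-like subgroup attached to a section. -/
noncomputable def gstab (hKA : K ⊔ A = U) {κ : G → K} (hκ : IsSec K A κ) : Subgroup G where
  carrier := {x | gdiff K U (gact K x κ) κ = 1}
  one_mem' := by
    show gdiff K U (gact K 1 κ) κ = 1
    rw [gact_one, gdiff_self]
  mul_mem' := by
    intro x y hx hy
    show gdiff K U (gact K (x * y) κ) κ = 1
    have hx' : gdiff K U (gact K x κ) κ = 1 := hx
    have hy' : gdiff K U (gact K y κ) κ = 1 := hy
    rw [gact_mul, ← gdiff_mul K U _ (gact K x κ) κ, gdiff_gact hKA (isSec_gact y hκ) hκ, hy', hx']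
    simp
  inv_mem' := by
    intro x hx
    show gdiff K U (gact K x⁻¹ κ) κ = 1
    have hx' : gdiff K U (gact K x κ) κ = 1 := hx
    have h1 : gact K x⁻¹ (gact K x κ) = κ := by
      rw [← gact_mul, inv_mul_cancel, gact_one]
    have h2 := gdiff_gact hKA hκ (isSec_gact x hκ) x⁻¹
    rw [h1, ← gdiff_inv K U (gact K x κ) κ, hx'] at h2
    rw [h2]; simp

theorem mem_gstab (hKA : K ⊔ A = U) {κ : G → K} (hκ : IsSec K A κ) (x : G) :
    x ∈ gstab hKA hκ ↔ gdiff K U (gact K x κ) κ = 1 := Iff.rfl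

theorem gstab_isComplement' (hcop : (Nat.card K).Coprime U.index) (hKA : K ⊔ A = U)
    {κ : G → K} (hκ : IsSec K A κ) : Subgroup.IsComplement' K (gstab hKA hκ) := by
  apply Subgroup.isComplement'_of_disjoint_and_mul_eq_univ
  · rw [Subgroup.disjoint_def]
    intro x hxK hx
    rw [mem_gstab] at hx
    have h1 := gdiff_gact_mem (U := U) hκ ⟨x, hxK⟩
    simp only at h1
    rw [hx] at h1
    have h2 : orderOf (⟨x, hxK⟩ : K) ∣ U.index := orderOf_dvd_of_pow_eq_one h1.symm
    have h3 : orderOf (⟨x, hxK⟩ : K) ∣ Nat.card K := orderOf_dvd_natCard _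
    have h4 : orderOf (⟨x, hxK⟩ : K) = 1 := Nat.eq_one_of_dvd_coprimes hcop h3 h2
    have h5 : (⟨x, hxK⟩ : K) = 1 := orderOf_eq_one_iff.mp h4
    exact congrArg Subtype.val h5
  · rw [Set.eq_univ_iff_forall]
    intro g
    obtain ⟨k, hk⟩ := (powCoprime hcop).surjective (gdiff K U (gact K g κ) κ)⁻¹
    have hk' : k ^ U.index = (gdiff K U (gact K g κ) κ)⁻¹ := hk
    have hmem : (k : G) * g ∈ gstab hKA hκ := by
      rw [mem_gstab, gact_mul, ← gdiff_mul K U _ (gact K g κ) κ,
        gdiff_gact_mem (isSec_gact g hκ), hk', inv_mul_cancel]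
    refine ⟨(k⁻¹ : K), (k⁻¹ : K).2, (k : G) * g, hmem, ?_⟩
    simp

variable (U) in
/-- Right coset representatives for `U`. -/
noncomputable def rrep (g : G) : G := ((QuotientGroup.mk g⁻¹ : G ⧸ U).out)⁻¹

omit [Finite G] in
theorem rrep_mul_left (u : G) (hu : u ∈ U) (g : G) : rrep U (u * g) = rrep U g := by
  unfold rrep
  have : (QuotientGroup.mk (u * g)⁻¹ : G ⧸ U) = QuotientGroup.mk g⁻¹ := by
    rw [QuotientGroup.eq]
    simpa using hu
  rw [this]

omit [Finite G] in
theorem rrep_spec (g : G) : g * (rrep U g)⁻¹ ∈ U := by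
  unfold rrep
  obtain ⟨u, hu⟩ := QuotientGroup.mk_out_eq_mul U g⁻¹
  rw [hu]
  simp

omit [Finite G] [IsMulCommutative K] in
theorem sec_exists (hKA : K ⊔ A = U) (g : G) : ∃ k : K, ∃ a ∈ A, g = a * rrep U g * k := by
  have hu : g * (rrep U g)⁻¹ ∈ K ⊔ A := by rw [hKA]; exact rrep_spec (U := U) g
  obtain ⟨k, hk, a, ha, hka⟩ := Subgroup.mem_sup_of_normal_left.mp hu
  have hc : (a * rrep U g)⁻¹ * k * (a * rrep U g) ∈ K := by
    have := ‹K.Normal›.conj_mem k hk (a * rrep U g)⁻¹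
    simpa using this
  refine ⟨⟨_, hc⟩, a, ha, ?_⟩
  have : g = k * a * rrep U g := by rw [hka]; group
  show g = a * rrep U g * ((a * rrep U g)⁻¹ * k * (a * rrep U g))
  calc g = k * a * rrep U g := this
    _ = a * rrep U g * ((a * rrep U g)⁻¹ * k * (a * rrep U g)) := by group

omit [Finite G] [IsMulCommutative K] in
theorem sec_unique (hAK : A ⊓ K = ⊥) {r a a' : G} (ha : a ∈ A) (ha' : a' ∈ A) {k k' : K}
    (h : a * r * k = a' * r * k') : k = k' := by
  have h1 : a'⁻¹ * a = r * ((k' * k⁻¹ : K) : G) * r⁻¹ := by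
    have : a'⁻¹ * a = r * ((k' : G) * (k : G)⁻¹) * r⁻¹ := by
      have h2 : a * r = a' * r * k' * (k : G)⁻¹ := by rw [← h]; group
      have h3 : a = a' * r * k' * (k : G)⁻¹ * r⁻¹ := by rw [← h2]; group
      rw [h3]; group
    simpa using this
  have h2 : a'⁻¹ * a ∈ K := by
    rw [h1]; exact ‹K.Normal›.conj_mem _ (k' * k⁻¹ : K).2 r
  have h3 : a'⁻¹ * a ∈ A ⊓ K := ⟨A.mul_mem (A.inv_mem ha') ha, h2⟩
  rw [hAK, Subgroup.mem_bot] at h3
  have h4 : a = a' := by
    have := congrArg (fun z => a' * z) h3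
    simpa using this
  subst h4
  have : (k : G) = k' := by
    have := congrArg (fun z => (a * r)⁻¹ * z) h
    simpa [mul_assoc] using this
  exact Subtype.ext this

omit [Finite G] [IsMulCommutative K] in
theorem exists_isSec (hAK : A ⊓ K = ⊥) (hKA : K ⊔ A = U) : ∃ κ : G → K, IsSec K A κ := by
  have hKU : K ≤ U := hKA ▸ le_sup_left
  have hAU : A ≤ U := hKA ▸ le_sup_right
  choose κ hκ using sec_exists (K := K) (A := A) hKA
  refine ⟨κ, fun g k₁ => ?_, fun a₁ ha₁ g => ?_⟩
  · obtain ⟨a, ha, h1⟩ := hκ g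
    obtain ⟨a', ha', h2⟩ := hκ (g * k₁)
    have hr : rrep U (g * (k₁ : G)) = rrep U g := by
      have : g * (k₁ : G) = (g * k₁ * g⁻¹) * g := by group
      rw [this]
      exact rrep_mul_left _ (hKU (‹K.Normal›.conj_mem _ k₁.2 g)) g
    rw [hr] at h2
    have h3 : a' * rrep U g * (κ (g * (k₁ : G)) : G) = a * rrep U g * ((κ g * k₁ : K) : G) := by
      rw [← h2]
      conv_lhs => rw [h1]
      simp [mul_assoc]
    exact sec_unique hAK ha' ha h3
  · obtain ⟨a, ha, h1⟩ := hκ g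
    obtain ⟨a', ha', h2⟩ := hκ (a₁ * g)
    rw [rrep_mul_left _ (hAU ha₁)] at h2
    have h3 : a' * rrep U g * (κ (a₁ * g) : G) = (a₁ * a) * rrep U g * (κ g : G) := by
      rw [← h2]
      conv_lhs => rw [h1]
      simp [mul_assoc]
    exact sec_unique hAK ha' (A.mul_mem ha₁ ha) h3

/-- Gaschütz, existence. -/
theorem gaschutz_exists (hcop : (Nat.card K).Coprime U.index) (hAK : A ⊓ K = ⊥)
    (hKA : K ⊔ A = U) : ∃ H : Subgroup G, Subgroup.IsComplement' K H := by
  obtain ⟨κ, hκ⟩ := exists_isSec hAK hKA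
  exact ⟨gstab hKA hκ, gstab_isComplement' hcop hKA hκ⟩

/-- The section attached to a complement `H` of `K`: the `K`-part of `g = h * k`. -/
noncomputable def compSec {H : Subgroup G} (hc : Subgroup.IsComplement' H K) (g : G) : K :=
  ((Equiv.ofBijective _ hc).symm g).2

omit [Finite G] [K.Normal] [IsMulCommutative K] in
theorem compSec_eq {H : Subgroup G} (hc : Subgroup.IsComplement' H K) {h : G} (hh : h ∈ H)
    (k : K) : compSec hc (h * k) = k := by
  unfold compSec
  have : (Equiv.ofBijective _ hc).symm (h * (k : G)) = (⟨h, hh⟩, k) := by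
    rw [Equiv.symm_apply_eq]
    rfl
  rw [this]

omit [Finite G] [K.Normal] [IsMulCommutative K] in
theorem compSec_spec {H : Subgroup G} (hc : Subgroup.IsComplement' H K) (g : G) :
    ∃ h ∈ H, g = h * (compSec hc g : G) := by
  refine ⟨((Equiv.ofBijective _ hc).symm g).1, ((Equiv.ofBijective _ hc).symm g).1.2, ?_⟩
  have := (Equiv.ofBijective _ hc).apply_symm_apply g
  exact this.symm

omit [Finite G] [K.Normal] [IsMulCommutative K] in
theorem isSec_compSec {H : Subgroup G} (hc : Subgroup.IsComplement' H K) (hAH : A ≤ H) :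
    IsSec K A (compSec hc) := by
  refine ⟨fun g k₁ => ?_, fun a ha g => ?_⟩
  · obtain ⟨h, hh, hg⟩ := compSec_spec hc g
    have : g * (k₁ : G) = h * ((compSec hc g * k₁ : K) : G) := by
      conv_lhs => rw [hg]
      simp [mul_assoc]
    rw [this, compSec_eq hc hh]
  · obtain ⟨h, hh, hg⟩ := compSec_spec hc g
    have : a * g = (a * h) * (compSec hc g : G) := by
      conv_lhs => rw [hg]
      simp [mul_assoc]
    rw [this, compSec_eq hc (H.mul_mem (hAH ha) hh)]

omit [Finite G] [IsMulCommutative K] in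
theorem gact_compSec {H : Subgroup G} (hc : Subgroup.IsComplement' H K) {x : G} (hx : x ∈ H) :
    gact K x (compSec hc) = compSec hc := by
  funext g
  obtain ⟨h, hh, hg⟩ := compSec_spec hc g
  have : g * x = (h * x) * ((MulAut.conjNormal x⁻¹ (compSec hc g) : K) : G) := by
    conv_lhs => rw [hg]
    rw [MulAut.conjNormal_apply]; group
  simp only [gact]
  rw [this, compSec_eq hc (H.mul_mem hh hx), ← MulAut.mul_apply, ← map_mul, mul_inv_cancel,
    map_one, MulAut.one_apply]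

/-- Gaschütz, conjugacy. -/
theorem gaschutz_conj (hKU : K ≤ U) (hcop : (Nat.card K).Coprime U.index)
    (H₀ H₁ : Subgroup G) (h₀ : Subgroup.IsComplement' K H₀) (h₁ : Subgroup.IsComplement' K H₁)
    (hU : H₀ ⊓ U = H₁ ⊓ U) : ∃ g : G, MulAut.conj g • H₀ = H₁ := by
  have hKA : K ⊔ (H₀ ⊓ U) = U := by
    apply le_antisymm (sup_le hKU inf_le_right)
    intro u hu
    obtain ⟨⟨k, h⟩, hkh⟩ := h₀.2 u
    have hkh' : (k : G) * (h : G) = u := hkh
    have hh : (h : G) ∈ U := by
      have : (h : G) = (k : G)⁻¹ * u := by rw [← hkh']; group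
      rw [this]; exact U.mul_mem (U.inv_mem (hKU k.2)) hu
    rw [← hkh']
    exact Subgroup.mul_mem_sup k.2 ⟨h.2, hh⟩
  have hA₀ : H₀ ⊓ U ≤ H₀ := inf_le_left
  have hA₁ : H₀ ⊓ U ≤ H₁ := hU ▸ inf_le_left
  have hκ₀ := isSec_compSec (A := H₀ ⊓ U) h₀.symm hA₀
  have hκ₁ := isSec_compSec (A := H₀ ⊓ U) h₁.symm hA₁
  set κ₀ := compSec h₀.symm with hκ₀def
  set κ₁ := compSec h₁.symm with hκ₁def
  obtain ⟨k, hk⟩ := (powCoprime hcop).surjective (gdiff K U κ₁ κ₀)
  have hk' : k ^ U.index = gdiff K U κ₁ κ₀ := hk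
  have hκ₂ := isSec_gact (k : G) hκ₀
  have h21 : gdiff K U (gact K (k : G) κ₀) κ₁ = 1 := by
    rw [← gdiff_mul K U _ κ₀ κ₁, gdiff_gact_mem hκ₀, hk', gdiff_mul, gdiff_self]
  have hT := gstab_isComplement' hcop hKA hκ₁
  have hle₁ : H₁ ≤ gstab hKA hκ₁ := by
    intro x hx
    rw [mem_gstab, hκ₁def, gact_compSec h₁.symm hx, gdiff_self]
  have hle₀ : MulAut.conj (k : G) • H₀ ≤ gstab hKA hκ₁ := by
    intro y hy
    rw [mem_conj_smul] at hy
    rw [mem_gstab]
    have hy2 : gact K y (gact K (k : G) κ₀) = gact K (k : G) κ₀ := by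
      have : y * (k : G) = (k : G) * ((k : G)⁻¹ * y * k) := by group
      rw [← gact_mul, this, gact_mul, hκ₀def, gact_compSec h₀.symm hy]
    have h3 := gdiff_gact hKA hκ₁ hκ₂ y
    rw [hy2, ← gdiff_inv K U (gact K (k : G) κ₀) κ₁, h21] at h3
    rw [← gdiff_mul K U _ (gact K (k : G) κ₀) κ₁, h3, h21]
    simp
  have hc₀ := h₀.card_mul_card
  have hc₁ := h₁.card_mul_card
  have hcT := hT.card_mul_card
  have hKpos : 0 < Nat.card K := Nat.card_pos
  have e1 : Nat.card (gstab hKA hκ₁) = Nat.card H₁ :=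
    Nat.eq_of_mul_eq_mul_left hKpos (hcT.trans hc₁.symm)
  have e0 : Nat.card (gstab hKA hκ₁) = Nat.card H₀ :=
    Nat.eq_of_mul_eq_mul_left hKpos (hcT.trans hc₀.symm)
  have hH₁ : H₁ = gstab hKA hκ₁ := Subgroup.eq_of_le_of_card_ge hle₁ e1.le
  have hH₀ : MulAut.conj (k : G) • H₀ = gstab hKA hκ₁ :=
    Subgroup.eq_of_le_of_card_ge hle₀ (by rw [card_conj_smul]; exact e0.le)
  exact ⟨k, hH₀.trans hH₁.symm⟩

end Gaschutz

end Cfsg.Agent.Lib.helper1
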