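import Mathlib
import Cfsg.Agent.Lib.helper1.NormEA
import Cfsg.Agent.Lib.helper1.MaxClass

set_option autoImplicit false
set_option linter.style.haveILetI false

namespace Cfsg.Agent.Lib.helper1.K4157e

universe u

/-- A `2`-group of order `2 ^ m` with a self-centralizing proper normal subgroup of order `4`
has order `8` and nilpotency class `2 = m - 1`. -/
theorem class_of_selfcentralizing_four {G : Type u} [Group G] [Finite G] (m : ℕ)
    (hG : Nat.card G = 2 ^ m) (E : Subgroup G) [E.Normal] (hE : Nat.card E = 4)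
    (hC : Subgroup.centralizer (E : Set G) = E) (hne : E ≠ ⊤) :
    m = 3 ∧ Group.nilpotencyClass G = m - 1 := by
  haveI : Fact (Nat.Prime 2) := ⟨Nat.prime_two⟩
  have hpg : IsPGroup 2 G := IsPGroup.of_card hG
  haveI : Group.IsNilpotent G := hpg.isNilpotent
  have h1 := Cfsg.Agent.Lib.helper1.card_le_of_normal_sq hpg E (by rw [hE]; norm_num)
  rw [hC, hE, hG] at h1
  have h2 : Nat.card E ∣ Nat.card G := Subgroup.card_subgroup_dvd_card E
  rw [hE, hG] at h2
  have h3 : Nat.card G ≠ 4 := by
    intro h4
    exact hne (Subgroup.eq_top_of_card_eq E (by rw [hE, h4]))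
  rw [hG] at h3
  have hm : m = 3 := by
    have hm3 : m ≤ 3 := by
      by_contra hcon
      push Not at hcon
      have : 2 ^ 4 ≤ 2 ^ m := Nat.pow_le_pow_right (by norm_num) hcon
      omega
    interval_cases m
    · norm_num at h2
    · norm_num at h2
    · norm_num at h3
    · rfl
  subst hm
  refine ⟨rfl, ?_⟩
  have hle : Group.nilpotencyClass G ≤ 3 - 1 :=
    Cfsg.Agent.Lib.helper1.class_le_of_card 2 3 G (by norm_num) hG
  have hge : ¬ Group.nilpotencyClass G ≤ 1 := by
    intro hcl
    have hcen := Cfsg.Agent.Lib.helper1.center_eq_top_of_class_le_one hcl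
    apply hne
    rw [← hC, eq_top_iff]
    intro g _
    rw [Subgroup.mem_centralizer_iff]
    intro e _
    have hg : g ∈ Subgroup.center G := by rw [hcen]; trivial
    exact (Subgroup.mem_center_iff.mp hg e)
  omega

end Cfsg.Agent.Lib.helper1.K4157e
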