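import Mathlib
import Cfsg.Agent.Lib.helper1.Factor

set_option autoImplicit false
open Pointwise

namespace Cfsg.Agent.Lib.helper1

section
variable {G : Type*} [Group G] [Finite G] (P : Sylow 2 G)

theorem klein_orderOf (hP : IsKleinFour (P : Subgroup G)) (x : G) (hx : x ∈ (P : Subgroup G))
    (hx1 : x ≠ 1) : orderOf x = 2 := by
  haveI := hP
  haveI : Fact (Nat.Prime 2) := ⟨Nat.prime_two⟩
  apply orderOf_eq_prime
  · have := IsKleinFour.mul_self (⟨x, hx⟩ : (P : Subgroup G))
    have := congrArg Subtype.val this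
    rw [pow_two]; exact this
  · exact hx1

theorem klein_cases (hP : IsKleinFour (P : Subgroup G)) {x y z : G}
    (hx : x ∈ (P : Subgroup G)) (hy : y ∈ (P : Subgroup G)) (hz : z ∈ (P : Subgroup G))
    (hx1 : x ≠ 1) (hy1 : y ≠ 1) (hxy : x ≠ y) : z = 1 ∨ z = x ∨ z = y ∨ z = x * y := by
  haveI := hP
  by_cases hz1 : z = 1
  · exact Or.inl hz1
  by_cases hzx : z = x
  · exact Or.inr (Or.inl hzx)
  by_cases hzy : z = y
  · exact Or.inr (Or.inr (Or.inl hzy))
  right; right; right
  have := IsKleinFour.eq_mul_of_ne_all (G := (P : Subgroup G)) (x := ⟨x, hx⟩) (y := ⟨y, hy⟩)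
    (z := ⟨z, hz⟩) (fun h => hx1 (congrArg Subtype.val h)) (fun h => hy1 (congrArg Subtype.val h))
    (fun h => hxy (congrArg Subtype.val h)) (fun h => hz1 (congrArg Subtype.val h))
    (fun h => hzx (congrArg Subtype.val h)) (fun h => hzy (congrArg Subtype.val h))
  exact congrArg Subtype.val this

theorem klein_comm (hP : IsKleinFour (P : Subgroup G)) {x y : G}
    (hx : x ∈ (P : Subgroup G)) (hy : y ∈ (P : Subgroup G)) : x * y = y * x := by
  haveI := hP
  haveI : IsMulCommutative (P : Subgroup G) := IsKleinFour.isMulCommutative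
  exact congrArg Subtype.val (mul_comm' (⟨x, hx⟩ : (P : Subgroup G)) ⟨y, hy⟩)

/-- Fusion of involutions in a Klein four Sylow 2-subgroup: if two distinct involutions of `P`
are conjugate then all three are. -/
theorem klein_fusion (hP : IsKleinFour (P : Subgroup G)) {x y : G}
    (hx : x ∈ (P : Subgroup G)) (hy : y ∈ (P : Subgroup G)) (hx1 : x ≠ 1) (hy1 : y ≠ 1)
    (hxy : x ≠ y) (hconj : IsConj x y) : IsConj x (x * y) := by
  haveI := hP
  haveI : Fact (Nat.Prime 2) := ⟨Nat.prime_two⟩
  haveI : IsMulCommutative (P : Subgroup G) := IsKleinFour.isMulCommutative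
  obtain ⟨c, hc⟩ := isConj_iff.mp hconj
  have h1 : c⁻¹⁻¹ * x * c⁻¹ ∈ (P : Subgroup G) := by rw [inv_inv, hc]; exact hy
  obtain ⟨n, hn, hn'⟩ := P.conj_eq_normalizer_conj_of_mem x c⁻¹ hx h1
  rw [inv_inv, hc] at hn'
  set m := n⁻¹ with hm
  have hmN : m ∈ Subgroup.normalizer ((P : Subgroup G) : Set G) := Subgroup.inv_mem _ hn
  have hmx : m * x * m⁻¹ = y := by rw [hm, inv_inv]; exact hn'.symm
  have hmP : ∀ h, h ∈ (P : Subgroup G) → m * h * m⁻¹ ∈ (P : Subgroup G) := fun h hh =>
    (Subgroup.mem_normalizer_iff.mp hmN h).mp hh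
  set w := m * y * m⁻¹ with hw
  have hwP : w ∈ (P : Subgroup G) := hmP y hy
  have hw1 : w ≠ 1 := by
    intro h
    apply hy1
    have := congrArg (fun t => m⁻¹ * t * m) h
    simpa [hw, mul_assoc] using this
  have hwy : w ≠ y := by
    intro h
    apply hxy
    have h2 : m * y * m⁻¹ = m * x * m⁻¹ := by rw [← hw, h, hmx]
    have := congrArg (fun t => m⁻¹ * t * m) h2
    simpa [mul_assoc] using this.symm
  rcases klein_cases P hP hx hy hwP hx1 hy1 hxy with h | h | h | h
  · exact absurd h hw1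
  · -- `m` swaps `x` and `y`: impossible by odd index
    exfalso
    have hmy : m * y * m⁻¹ = x := by rw [← hw]; exact h
    set N := Subgroup.normalizer ((P : Subgroup G) : Set G) with hN
    set C := Subgroup.centralizer ((P : Subgroup G) : Set G) with hC
    haveI hCn : (C.subgroupOf N).Normal := Subgroup.normal_subgroupOf_centralizer_normalizer _
    have hmC : m ∉ C := by
      intro hmem
      rw [hC, Subgroup.mem_centralizer_iff] at hmem
      have := hmem x hx
      apply hxy
      rw [← hmx, ← this, mul_assoc, mul_inv_cancel, mul_one]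
    have hmmC : m * m ∈ C := by
      rw [hC, Subgroup.mem_centralizer_iff]
      intro h hh
      have key : ∀ u, m * m * u * (m * m)⁻¹ = u → u * (m * m) = m * m * u := by
        intro u hu
        have := congrArg (fun t => t * (m * m)) hu
        simpa [mul_assoc] using this.symm
      apply key
      have e : ∀ u, m * m * u * (m * m)⁻¹ = m * (m * u * m⁻¹) * m⁻¹ := by intro u; group
      rcases klein_cases P hP hx hy hh hx1 hy1 hxy with rfl | rfl | rfl | rfl
      · simp
      · rw [e, hmx, hmy]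
      · rw [e, hmy, hmx]
      · rw [e]
        have : m * (x * y) * m⁻¹ = (m * x * m⁻¹) * (m * y * m⁻¹) := by group
        rw [this, hmx, hmy]
        have : m * (y * x) * m⁻¹ = (m * y * m⁻¹) * (m * x * m⁻¹) := by group
        rw [this, hmy, hmx]
    set q : N ⧸ C.subgroupOf N := QuotientGroup.mk ⟨m, hmN⟩ with hq
    have hq1 : q ≠ 1 := by
      intro h1
      rw [hq, QuotientGroup.eq_one_iff] at h1
      exact hmC (Subgroup.mem_subgroupOf.mp h1)
    have hq2 : q ^ 2 = 1 := by
      rw [hq, ← QuotientGroup.mk_pow, QuotientGroup.eq_one_iff, pow_two]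
      exact Subgroup.mem_subgroupOf.mpr hmmC
    have hqo : orderOf q = 2 := orderOf_eq_prime hq2 hq1
    have hdvd : 2 ∣ Nat.card (N ⧸ C.subgroupOf N) := by
      rw [← hqo]; exact orderOf_dvd_natCard q
    have hPC : (P : Subgroup G) ≤ C := by
      intro u hu
      rw [hC, Subgroup.mem_centralizer_iff]
      intro v hv
      exact klein_comm P hP hv hu
    have h3 : C.relIndex N ∣ (P : Subgroup G).relIndex N := Subgroup.relIndex_dvd_of_le_left N hPC
    have h4 : (P : Subgroup G).relIndex N ∣ (P : Subgroup G).index :=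
      Subgroup.relIndex_dvd_index_of_le Subgroup.le_normalizer
    have h5 : Nat.card (N ⧸ C.subgroupOf N) = C.relIndex N := (Subgroup.index_eq_card _).symm
    rw [h5] at hdvd
    exact P.not_dvd_index (hdvd.trans (h3.trans h4))
  · exact absurd h hwy
  · have h2 : IsConj y (x * y) := isConj_iff.mpr ⟨m, by rw [← h]⟩
    exact hconj.trans h2

/-- The map from nonidentity elements of `P` to classes of involutions. -/
def kleinMap (hP : IsKleinFour (P : Subgroup G)) : {x : (P : Subgroup G) // x ≠ 1} →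
    {C : ConjClasses G // ∃ t : G, orderOf t = 2 ∧ ConjClasses.mk t = C} :=
  fun x => ⟨ConjClasses.mk (x.1 : G), (x.1 : G),
    klein_orderOf P hP _ x.1.2 (fun h => x.2 (Subtype.ext h)), rfl⟩

theorem kleinMap_surjective (hP : IsKleinFour (P : Subgroup G)) :
    Function.Surjective (kleinMap P hP) := by
  haveI : Fact (Nat.Prime 2) := ⟨Nat.prime_two⟩
  rintro ⟨C, t, ht, rfl⟩
  have hpg : IsPGroup 2 (Subgroup.zpowers t) := by
    apply IsPGroup.of_card (n := 1)
    rw [Nat.card_zpowers, ht, pow_one]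
  obtain ⟨g, hg⟩ := exists_conj_mem_of_not_dvd_index 2 (Subgroup.zpowers t) (P : Subgroup G) hpg
    P.not_dvd_index
  have hmem := hg t (Subgroup.mem_zpowers t)
  have ht1 : t ≠ 1 := by
    rintro rfl; rw [orderOf_one] at ht; omega
  have hne : (⟨g⁻¹ * t * g, hmem⟩ : (P : Subgroup G)) ≠ 1 := by
    intro h
    apply ht1
    have h2 : g⁻¹ * t * g = 1 := congrArg Subtype.val h
    have := congrArg (fun u => g * u * g⁻¹) h2
    simpa [mul_assoc] using this
  refine ⟨⟨⟨g⁻¹ * t * g, hmem⟩, hne⟩, ?_⟩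
  apply Subtype.ext
  simp only [kleinMap]
  rw [ConjClasses.mk_eq_mk_iff_isConj, isConj_iff]
  exact ⟨g, by group⟩

theorem card_klein_invol (hP : IsKleinFour (P : Subgroup G)) :
    Nat.card {x : (P : Subgroup G) // x ≠ 1} = 3 := by
  haveI := hP
  have h : Nat.card {x : (P : Subgroup G) // x ≠ 1} = Nat.card (({1}ᶜ : Set (P : Subgroup G))) := rfl
  rw [h, Nat.card_coe_set_eq, Set.ncard_compl, Set.ncard_singleton, IsKleinFour.card_four]

theorem kleinMap_eq_iff (hP : IsKleinFour (P : Subgroup G)) (a b : {x : (P : Subgroup G) // x ≠ 1}) :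
    kleinMap P hP a = kleinMap P hP b ↔ IsConj (a.1 : G) (b.1 : G) := by
  simp only [kleinMap, Subtype.mk.injEq]
  exact ConjClasses.mk_eq_mk_iff_isConj

theorem klein_card_classes (hP : IsKleinFour (P : Subgroup G)) :
    Nat.card {C : ConjClasses G // ∃ t : G, orderOf t = 2 ∧ ConjClasses.mk t = C} = 1 ∨
    Nat.card {C : ConjClasses G // ∃ t : G, orderOf t = 2 ∧ ConjClasses.mk t = C} = 3 := by
  by_cases hinj : Function.Injective (kleinMap P hP)
  · right
    have hb : Function.Bijective (kleinMap P hP) := ⟨hinj, kleinMap_surjective P hP⟩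
    rw [← Nat.card_congr (Equiv.ofBijective _ hb), card_klein_invol P hP]
  · left
    rw [Function.Injective] at hinj
    push Not at hinj
    obtain ⟨a, b, hab, hne⟩ := hinj
    rw [kleinMap_eq_iff] at hab
    have ha1 : (a.1 : G) ≠ 1 := fun h => a.2 (Subtype.ext h)
    have hb1 : (b.1 : G) ≠ 1 := fun h => b.2 (Subtype.ext h)
    have hne' : (a.1 : G) ≠ (b.1 : G) := fun h => hne (Subtype.ext (Subtype.ext h))
    have hconst : ∀ c, kleinMap P hP c = kleinMap P hP a := by
      intro c
      rw [kleinMap_eq_iff]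
      have hc1 : (c.1 : G) ≠ 1 := fun h => c.2 (Subtype.ext h)
      rcases klein_cases P hP a.1.2 b.1.2 c.1.2 ha1 hb1 hne' with h | h | h | h
      · exact absurd h hc1
      · rw [h]
      · rw [h]; exact hab.symm
      · rw [h]; exact (klein_fusion P hP a.1.2 b.1.2 ha1 hb1 hne' hab).symm
    rw [Nat.card_eq_one_iff_unique]
    refine ⟨⟨fun u v => ?_⟩, ⟨kleinMap P hP a⟩⟩
    obtain ⟨c, rfl⟩ := kleinMap_surjective P hP u
    obtain ⟨d, rfl⟩ := kleinMap_surjective P hP v
    rw [hconst c, hconst d]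

theorem klein_three_iff_injective (hP : IsKleinFour (P : Subgroup G)) :
    Nat.card {C : ConjClasses G // ∃ t : G, orderOf t = 2 ∧ ConjClasses.mk t = C} = 3 ↔
    Function.Injective (kleinMap P hP) := by
  constructor
  · intro h
    have hb : Function.Bijective (kleinMap P hP) :=
      (Nat.bijective_iff_surjective_and_card _).mpr
        ⟨kleinMap_surjective P hP, by rw [card_klein_invol P hP, h]⟩
    exact hb.1
  · intro hinj
    have hb : Function.Bijective (kleinMap P hP) := ⟨hinj, kleinMap_surjective P hP⟩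
    rw [← Nat.card_congr (Equiv.ofBijective _ hb), card_klein_invol P hP]

theorem klein_three_iff_compl (hP : IsKleinFour (P : Subgroup G)) :
    Nat.card {C : ConjClasses G // ∃ t : G, orderOf t = 2 ∧ ConjClasses.mk t = C} = 3 ↔
    ∃ N : Subgroup G, N.Normal ∧ Subgroup.IsComplement' N (P : Subgroup G) := by
  haveI : Fact (Nat.Prime 2) := ⟨Nat.prime_two⟩
  rw [klein_three_iff_injective P hP]
  constructor
  · intro hinj
    have hNC : Subgroup.normalizer ((P : Subgroup G) : Set G) ≤
        Subgroup.centralizer ((P : Subgroup G) : Set G) := by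
      intro n hn
      rw [Subgroup.mem_centralizer_iff]
      intro h hh
      by_cases h1 : h = 1
      · rw [h1]; simp
      · have hmem : n * h * n⁻¹ ∈ (P : Subgroup G) := (Subgroup.mem_normalizer_iff.mp hn h).mp hh
        have hne : n * h * n⁻¹ ≠ 1 := by
          intro h2
          apply h1
          have := congrArg (fun t => n⁻¹ * t * n) h2
          simpa [mul_assoc] using this
        have heq : kleinMap P hP ⟨⟨h, hh⟩, fun e => h1 (congrArg Subtype.val e)⟩ =
            kleinMap P hP ⟨⟨n * h * n⁻¹, hmem⟩, fun e => hne (congrArg Subtype.val e)⟩ := by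
          rw [kleinMap_eq_iff]
          exact isConj_iff.mpr ⟨n, rfl⟩
        have := hinj heq
        have h3 : h = n * h * n⁻¹ := congrArg (fun u => ((u.1 : (P : Subgroup G)) : G)) this
        have := congrArg (fun t => t * n) h3
        simpa [mul_assoc] using this
    exact ⟨(MonoidHom.transferSylow P hNC).ker, MonoidHom.normal_ker _,
      MonoidHom.ker_transferSylow_isComplement' P hNC⟩
  · rintro ⟨N, hNn, hNc⟩
    haveI := hNn
    intro a b hab
    rw [kleinMap_eq_iff] at hab
    obtain ⟨c, hc⟩ := isConj_iff.mp hab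
    have hmul : (N : Set G) * ((P : Subgroup G) : Set G) = Set.univ := by
      rw [← Subgroup.normal_mul, hNc.sup_eq_top, Subgroup.coe_top]
    have hc' : c ∈ (N : Set G) * ((P : Subgroup G) : Set G) := by rw [hmul]; exact Set.mem_univ c
    obtain ⟨n, hn, p, hp, rfl⟩ := Set.mem_mul.mp hc'
    have h1 : p * (a.1 : G) * p⁻¹ = (a.1 : G) := by
      rw [klein_comm P hP hp a.1.2, mul_assoc, mul_inv_cancel, mul_one]
    have h2 : n * (a.1 : G) * n⁻¹ = (b.1 : G) := by
      rw [← hc]
      calc n * (a.1 : G) * n⁻¹ = n * (p * (a.1 : G) * p⁻¹) * n⁻¹ := by rw [h1]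
        _ = n * p * (a.1 : G) * (n * p)⁻¹ := by group
    have h3 : (b.1 : G) * (a.1 : G)⁻¹ ∈ N := by
      rw [← h2]
      have : n * (a.1 : G) * n⁻¹ * (a.1 : G)⁻¹ = n * ((a.1 : G) * n⁻¹ * (a.1 : G)⁻¹) := by group
      rw [this]
      exact N.mul_mem hn (hNn.conj_mem _ (N.inv_mem hn) _)
    have h4 : (b.1 : G) * (a.1 : G)⁻¹ ∈ (P : Subgroup G) :=
      Subgroup.mul_mem _ b.1.2 (Subgroup.inv_mem _ a.1.2)
    have h5 : (b.1 : G) * (a.1 : G)⁻¹ ∈ N ⊓ (P : Subgroup G) := Subgroup.mem_inf.mpr ⟨h3, h4⟩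
    rw [disjoint_iff.mp hNc.disjoint, Subgroup.mem_bot] at h5
    have h6 : (b.1 : G) = (a.1 : G) := by
      have := congrArg (fun t => t * (a.1 : G)) h5
      simpa using this
    exact Subtype.ext (Subtype.ext h6.symm)

end

end Cfsg.Agent.Lib.helper1
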