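import Mathlib
import Cfsg.Agent.Lib.helper1.SZ

set_option autoImplicit false

namespace Cfsg.Agent.Lib.helper1

universe u

/-- If `M ⊔ N = ⊤` with `N` normal, then `|G : M|` divides `|N|`. -/
theorem index_dvd_card_of_sup_eq_top {G : Type*} [Group G] [Finite G] (M N : Subgroup G)
    [N.Normal] (h : M ⊔ N = ⊤) : M.index ∣ Nat.card N := by
  have h1 : N.relIndex M = N.index := by
    rw [← Subgroup.relIndex_sup_right M N, h, Subgroup.relIndex_top_right]
  have h2 : N.relIndex M * Nat.card (N ⊓ M : Subgroup G) = Nat.card M := by
    rw [← Subgroup.inf_relIndex_right N M]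
    have := Subgroup.relIndex_mul_relIndex (⊥ : Subgroup G) (N ⊓ M) M bot_le inf_le_right
    rw [Subgroup.relIndex_bot_left, Subgroup.relIndex_bot_left] at this
    rw [mul_comm]; exact this
  have h3 : M.index * Nat.card M = Nat.card G := by
    rw [mul_comm]; exact Subgroup.card_mul_index M
  have h4 : N.index * Nat.card N = Nat.card G := by
    rw [mul_comm]; exact Subgroup.card_mul_index N
  have h5 : M.index * Nat.card (N ⊓ M : Subgroup G) = Nat.card N := by
    have hpos : 0 < N.index := Nat.pos_of_ne_zero Subgroup.index_ne_zero_of_finite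
    apply Nat.eq_of_mul_eq_mul_left hpos
    rw [h4, ← h3, ← h2, h1]; ring
  exact Dvd.intro _ h5

/-- If the preimage of `K` under a surjective hom is a coatom then `K` is a coatom. -/
theorem isCoatom_of_comap {G H : Type*} [Group G] [Group H] (f : G →* H)
    (hf : Function.Surjective f) (K : Subgroup H) (hK : IsCoatom (K.comap f)) : IsCoatom K := by
  constructor
  · intro h
    apply hK.1
    rw [h, Subgroup.comap_top]
  · intro L hL
    have hlt : K.comap f < L.comap f := by
      refine lt_of_le_of_ne (Subgroup.comap_mono hL.le) ?_
      intro heq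
      exact hL.ne (Subgroup.comap_injective hf heq)
    have := hK.2 _ hlt
    rw [← Subgroup.comap_top f] at this
    exact Subgroup.comap_injective hf this

end Cfsg.Agent.Lib.helper1
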