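import Mathlib
import Cfsg.Prelude.Def_CaseTheorems

set_option autoImplicit false

namespace Cfsg.Agent.Lib.helper1.S1454T

open scoped commutatorElement

universe u

/-- transport of part (3b) of S1454 to the group `↥(R ⊔ A)`, in which `R` is normal -/
theorem part3b_of_amb {G : Type u} [Group G] [Finite G] (p : ℕ) [Fact p.Prime] (R A : Subgroup G)
    (hR : IsPGroup p R) (hrk : Cfsg.PRankLE p 2 R) (hA : A ≤ Subgroup.normalizer (R : Set G))
    (hq : (Nat.card A).Prime) (hnd : ¬ Nat.card A ∣ p * (p - 1)) (hRA : ⁅R, A⁆ = R)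
    (hnc : ¬ IsMulCommutative R)
    (amb : ∀ (H : Type u) [Group H] [Finite H] (S : Subgroup H) [S.Normal], IsPGroup p S →
      (∀ B : Subgroup H, B ≤ S → (∀ x ∈ B, ∀ y ∈ B, x * y = y * x) → (∀ x ∈ B, x ^ p = 1) →
        Nat.card B ≤ p ^ 2) →
      ∀ a : H, (orderOf a).Coprime (p * (p - 1)) →
      (∀ L : Subgroup H, L.Normal → L ≤ S → (∀ x ∈ S, a * x * a⁻¹ * x⁻¹ ∈ L) → S ≤ L) →
      (∃ x ∈ S, ∃ y ∈ S, x * y ≠ y * x) → Nat.card S = p ^ 3) :
    Nat.card R = p ^ 3 := by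
  have hRH : R ≤ R ⊔ A := le_sup_left
  have hAH : A ≤ R ⊔ A := le_sup_right
  have hHN : R ⊔ A ≤ Subgroup.normalizer (R : Set G) := sup_le Subgroup.le_normalizer hA
  have hPn : (R.subgroupOf (R ⊔ A)).Normal := by
    constructor
    intro x hx g
    rw [Subgroup.mem_subgroupOf] at hx ⊢
    have h := (Subgroup.mem_normalizer_iff.mp (hHN g.2)) x.1
    exact h.mp hx
  have hPp : IsPGroup p ↥(R.subgroupOf (R ⊔ A)) :=
    hR.comap_of_injective (R ⊔ A).subtype Subtype.val_injective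
  have htr : ∀ B : Subgroup ↥(R ⊔ A), B ≤ R.subgroupOf (R ⊔ A) →
      Nat.card ↥(B.comap (Subgroup.inclusion hRH)) = Nat.card ↥B := by
    intro B hB
    apply Nat.card_congr
    refine ⟨fun x => ⟨Subgroup.inclusion hRH x.1, x.2⟩,
      fun y => ⟨⟨y.1.1, hB y.2⟩, ?_⟩, ?_, ?_⟩
    · show Subgroup.inclusion hRH ⟨y.1.1, hB y.2⟩ ∈ B
      have : Subgroup.inclusion hRH ⟨y.1.1, hB y.2⟩ = y.1 := Subtype.ext rfl
      rw [this]; exact y.2
    · intro x; apply Subtype.ext; apply Subtype.ext; rfl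
    · intro y; apply Subtype.ext; apply Subtype.ext; rfl
  have hrank : ∀ B : Subgroup ↥(R ⊔ A), B ≤ R.subgroupOf (R ⊔ A) →
      (∀ x ∈ B, ∀ y ∈ B, x * y = y * x) → (∀ x ∈ B, x ^ p = 1) → Nat.card B ≤ p ^ 2 := by
    intro B hBP hab hexp
    rw [← htr B hBP]
    refine hrk _ ⟨⟨fun a b => ?_⟩⟩ ?_
    · apply Subtype.ext
      apply Subtype.ext
      have := hab _ a.2 _ b.2
      exact congrArg (fun w : ↥(R ⊔ A) => (w : G)) this
    · intro a ha
      apply Subtype.ext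
      have := hexp _ ha
      exact congrArg (fun w : ↥(R ⊔ A) => (w : G)) this
  -- a generator of A
  have hqF : Fact (Nat.card ↥A).Prime := ⟨hq⟩
  have hcyc : IsCyclic ↥A := isCyclic_of_prime_card rfl
  obtain ⟨a0, ha0⟩ := IsCyclic.exists_generator (α := ↥A)
  have hord0 : orderOf a0 = Nat.card ↥A := orderOf_eq_card_of_forall_mem_zpowers ha0
  have horda : orderOf (Subgroup.inclusion hAH a0) = Nat.card ↥A := by
    rw [orderOf_injective (Subgroup.inclusion hAH) (Subgroup.inclusion_injective hAH) a0, hord0]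
  have hcop : (orderOf (Subgroup.inclusion hAH a0)).Coprime (p * (p - 1)) := by
    rw [horda]
    exact (Nat.Prime.coprime_iff_not_dvd hq).mpr hnd
  have hcard := amb ↥(R ⊔ A) (R.subgroupOf (R ⊔ A)) hPp hrank (Subgroup.inclusion hAH a0) hcop
    ?_ ?_
  · rw [← hcard]
    exact (Nat.card_congr (Subgroup.subgroupOfEquivOfLe hRH).toEquiv).symm
  · intro L hLn hLP hL
    have hpow : ∀ n : ℕ, ∀ x ∈ R.subgroupOf (R ⊔ A),
        (Subgroup.inclusion hAH a0) ^ n * x * ((Subgroup.inclusion hAH a0) ^ n)⁻¹ * x⁻¹ ∈ L := by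
      intro n
      induction n with
      | zero =>
        intro x _
        have : (Subgroup.inclusion hAH a0) ^ 0 * x * ((Subgroup.inclusion hAH a0) ^ 0)⁻¹ * x⁻¹
            = 1 := by rw [pow_zero]; group
        rw [this]; exact L.one_mem
      | succ n ih =>
        intro x hx
        have h1 : (Subgroup.inclusion hAH a0) ^ (n + 1) * x *
            ((Subgroup.inclusion hAH a0) ^ (n + 1))⁻¹ * x⁻¹ =
            ((Subgroup.inclusion hAH a0) ^ n *
              ((Subgroup.inclusion hAH a0) * x * (Subgroup.inclusion hAH a0)⁻¹ * x⁻¹) *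
              ((Subgroup.inclusion hAH a0) ^ n)⁻¹) *
            ((Subgroup.inclusion hAH a0) ^ n * x * ((Subgroup.inclusion hAH a0) ^ n)⁻¹ * x⁻¹) := by
          rw [pow_succ]; group
        rw [h1]
        exact L.mul_mem (hLn.conj_mem _ (hL x hx) _) (ih x hx)
    have hle : ⁅R, A⁆ ≤ L.map (R ⊔ A).subtype := by
      rw [Subgroup.commutator_le]
      intro r hr b hb
      have hbz : (⟨b, hb⟩ : ↥A) ∈ Subgroup.zpowers a0 := ha0 ⟨b, hb⟩
      rw [← mem_powers_iff_mem_zpowers] at hbz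
      obtain ⟨n, hn⟩ := hbz
      have hmem := hpow n ⟨r, hRH hr⟩ (Subgroup.mem_subgroupOf.mpr hr)
      have hval : ((R ⊔ A).subtype ((Subgroup.inclusion hAH a0) ^ n * ⟨r, hRH hr⟩ *
          ((Subgroup.inclusion hAH a0) ^ n)⁻¹ * (⟨r, hRH hr⟩ : ↥(R ⊔ A))⁻¹)) =
          b * r * b⁻¹ * r⁻¹ := by
        have hb' : ((Subgroup.inclusion hAH a0) ^ n : ↥(R ⊔ A)) = ⟨b, hAH hb⟩ := by
          rw [← map_pow]
          have : a0 ^ n = ⟨b, hb⟩ := hn
          rw [this]; rfl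
        rw [hb']; rfl
      have h2 : b * r * b⁻¹ * r⁻¹ ∈ L.map (R ⊔ A).subtype := ⟨_, hmem, hval⟩
      have h3 : ⁅r, b⁆ = (b * r * b⁻¹ * r⁻¹)⁻¹ := by
        rw [commutatorElement_def]; group
      rw [h3]
      exact Subgroup.inv_mem _ h2
    rw [hRA] at hle
    intro x hx
    obtain ⟨y, hy, hyx⟩ := hle (Subgroup.mem_subgroupOf.mp hx)
    have : y = x := Subtype.ext hyx
    rw [← this]; exact hy
  · by_contra hall
    push Not at hall
    apply hnc
    refine ⟨⟨fun a b => ?_⟩⟩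
    apply Subtype.ext
    have := hall ⟨a.1, hRH a.2⟩ (Subgroup.mem_subgroupOf.mpr a.2) ⟨b.1, hRH b.2⟩
      (Subgroup.mem_subgroupOf.mpr b.2)
    exact congrArg (fun w : ↥(R ⊔ A) => (w : G)) this

end Cfsg.Agent.Lib.helper1.S1454T
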