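import Mathlib
import Cfsg.Prelude.Def_PLocal
import Cfsg.Agent.Lib.helper3.ThompsonFact
import Cfsg.Agent.Lib.helper1.Fitting

/-!
# The stable normal closure `W(S)` (seat helper1)
-/

set_option autoImplicit false

namespace Cfsg.Agent.Lib.helper1

open Cfsg Cfsg.Agent.Lib.helper3

universe u

theorem omegaOne_map_inj {P Q : Type*} [Group P] [Group Q] (p : ℕ) (f : P →* Q)
    (hf : Function.Injective f) (K : Subgroup P) :
    (omegaOne p K).map f = omegaOne p (K.map f) := by
  unfold omegaOne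
  rw [MonoidHom.map_closure]
  congr 1
  ext y
  constructor
  · rintro ⟨x, ⟨hxK, hxp⟩, rfl⟩
    exact ⟨Subgroup.mem_map_of_mem f hxK, by rw [← map_pow, hxp, map_one]⟩
  · rintro ⟨⟨x, hxK, rfl⟩, hyp⟩
    refine ⟨x, ⟨hxK, ?_⟩, rfl⟩
    apply hf
    rw [map_pow, map_one]; exact hyp

theorem omegaOne_mono' {P : Type*} [Group P] (p : ℕ) {H K : Subgroup P} (h : H ≤ K) :
    omegaOne p H ≤ omegaOne p K :=
  Subgroup.closure_mono (fun _ hx => ⟨h hx.1, hx.2⟩)

theorem center_map_equiv {P Q : Type*} [Group P] [Group Q] (e : P ≃* Q) :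
    (Subgroup.center P).map e.toMonoidHom = Subgroup.center Q := by
  ext y
  constructor
  · rintro ⟨x, hx, rfl⟩
    have hx : x ∈ Subgroup.center P := hx
    rw [Subgroup.mem_center_iff] at hx ⊢
    intro q
    obtain ⟨g, rfl⟩ := e.surjective q
    change e g * e x = e x * e g
    rw [← map_mul, ← map_mul, hx g]
  · intro hy
    refine ⟨e.symm y, ?_, by simp⟩
    show e.symm y ∈ Subgroup.center P
    rw [Subgroup.mem_center_iff] at hy ⊢
    intro g
    apply e.injective
    rw [map_mul, map_mul, e.apply_symm_apply]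
    exact hy (e g)

theorem centralizer_map_equiv {P Q : Type*} [Group P] [Group Q] (e : P ≃* Q) (K : Subgroup P) :
    (Subgroup.centralizer (K : Set P)).map e.toMonoidHom
      = Subgroup.centralizer ((K.map e.toMonoidHom : Subgroup Q) : Set Q) := by
  ext y
  constructor
  · rintro ⟨x, hx, rfl⟩
    have hx : x ∈ Subgroup.centralizer (K : Set P) := hx
    rw [Subgroup.mem_centralizer_iff] at hx ⊢
    rintro _ ⟨k, hk, rfl⟩
    change e k * e x = e x * e k
    rw [← map_mul, ← map_mul, hx k hk]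
  · intro hy
    refine ⟨e.symm y, ?_, by simp⟩
    show e.symm y ∈ Subgroup.centralizer (K : Set P)
    rw [Subgroup.mem_centralizer_iff] at hy ⊢
    intro k hk
    apply e.injective
    rw [map_mul, map_mul, e.apply_symm_apply]
    exact hy (e k) (Subgroup.mem_map_of_mem _ hk)

theorem omegaCenterThompson_map_equiv {P Q : Type u} [Group P] [Group Q] (p : ℕ) (e : P ≃* Q) :
    (omegaCenterThompson p P).map e.toMonoidHom = omegaCenterThompson p Q := by
  unfold omegaCenterThompson
  rw [omegaOne_map_inj p _ e.injective, Subgroup.map_inf _ _ _ e.injective,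
    centralizer_map_equiv, thompsonSubgroup_map_equiv p e]

theorem isStableEmbedding_comp_equiv {S S' H : Type u} [Group S] [Group S'] [Group H] (p : ℕ)
    (e : S ≃* S') (τ : S →* H) (hτ : IsStableEmbedding p τ) :
    IsStableEmbedding p (τ.comp e.symm.toMonoidHom) := by
  obtain ⟨hinj, hfin, ⟨P, hP⟩, hc, hJ, hst⟩ := hτ
  have hmap : ∀ K : Subgroup S,
      (K.map e.toMonoidHom).map (τ.comp e.symm.toMonoidHom) = K.map τ := by
    intro K
    rw [Subgroup.map_map]
    congr 1
    ext x; simp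
  refine ⟨hinj.comp e.symm.injective, hfin, ⟨P, ?_⟩, hc, ?_, ?_⟩
  · rw [hP]
    ext y; constructor
    · rintro ⟨x, rfl⟩; exact ⟨e x, by simp⟩
    · rintro ⟨x, rfl⟩; exact ⟨e.symm x, rfl⟩
  · rw [← thompsonSubgroup_map_equiv p e, hmap]; exact hJ
  · intro V _ hV
    apply hst V
    rw [← omegaCenterThompson_map_equiv p e, hmap] at hV
    exact hV

/-- The family of subgroups whose intersection is `W(S)`. -/
def wFam (p : ℕ) (S : Type u) [Group S] : Set (Subgroup S) :=
  {W : Subgroup S | omegaOne p (Subgroup.center S) ≤ W ∧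
    ∀ (H : Type u) [Group H] (τ : S →* H), IsStableEmbedding p τ → (W.map τ).Normal}

theorem snc_eq (p : ℕ) (S : Type u) [Group S] : stableNormalClosure p S = sInf (wFam p S) := rfl

theorem omega_center_le_snc (p : ℕ) (S : Type u) [Group S] :
    omegaOne p (Subgroup.center S) ≤ stableNormalClosure p S :=
  le_sInf (fun _ hW => hW.1)

theorem snc_le_of_mem {p : ℕ} {S : Type u} [Group S] {W : Subgroup S} (hW : W ∈ wFam p S) :
    stableNormalClosure p S ≤ W := sInf_le hW

theorem omegaOne_normal_of_conj {X : Type*} [Group X] (p : ℕ) (K : Subgroup X)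
    (hK : ∀ (h y : X), y ∈ K → h * y * h⁻¹ ∈ K) : (omegaOne p K).Normal := by
  constructor
  intro y hy h
  unfold omegaOne at hy ⊢
  induction hy using Subgroup.closure_induction with
  | mem x hx =>
    apply Subgroup.subset_closure
    refine ⟨hK h x hx.1, ?_⟩
    rw [conj_pow, hx.2]; group
  | one => simp
  | mul x y _ _ ihx ihy =>
    have : h * (x * y) * h⁻¹ = (h * x * h⁻¹) * (h * y * h⁻¹) := by group
    rw [this]
    exact Subgroup.mul_mem _ ihx ihy
  | inv x _ ih =>
    have : h * x⁻¹ * h⁻¹ = (h * x * h⁻¹)⁻¹ := by group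
    rw [this]
    exact Subgroup.inv_mem _ ih

theorem oct_mem_wFam {S : Type u} [Group S] [Finite S] (p : ℕ) :
    omegaCenterThompson p S ∈ wFam p S := by
  constructor
  · unfold omegaCenterThompson omegaOne
    apply Subgroup.closure_mono
    rintro x ⟨hxc, hxp⟩
    refine ⟨Subgroup.mem_inf.mpr ⟨?_, Subgroup.center_le_centralizer _ hxc⟩, hxp⟩
    obtain ⟨A, hA⟩ := exists_maxEA p S
    have hEA : IsElementaryAbelian p (A ⊔ Subgroup.zpowers x) :=
      isEA_sup_zpowers p hA.1 hxp (fun a _ => Subgroup.mem_center_iff.mp hxc a)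
    have hle : A ≤ A ⊔ Subgroup.zpowers x := le_sup_left
    have heq : A = A ⊔ Subgroup.zpowers x := Subgroup.eq_of_le_of_card_ge hle (hA.2 _ hEA)
    have hxA : x ∈ A := by
      rw [heq]
      exact (le_sup_right : Subgroup.zpowers x ≤ _) (Subgroup.mem_zpowers x)
    exact le_thompson hA hxA
  · intro H _ τ hτ
    obtain ⟨hinj, -, -, -, hJ, -⟩ := hτ
    unfold omegaCenterThompson
    rw [omegaOne_map_inj p τ hinj]
    apply omegaOne_normal_of_conj
    rintro h _ ⟨x, hx, rfl⟩
    obtain ⟨hxJ, hxC⟩ := Subgroup.mem_inf.mp hx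
    obtain ⟨x', hx'J, hx'e⟩ := hJ.conj_mem _ (Subgroup.mem_map_of_mem τ hxJ) h
    refine ⟨x', Subgroup.mem_inf.mpr ⟨hx'J, ?_⟩, hx'e⟩
    rw [Subgroup.mem_centralizer_iff]
    intro j hj
    obtain ⟨j', hj'J, hj'e⟩ := hJ.conj_mem _ (Subgroup.mem_map_of_mem τ hj) h⁻¹
    have hcomm : j' * x = x * j' := Subgroup.mem_centralizer_iff.mp hxC j' hj'J
    apply hinj
    rw [map_mul, map_mul, hx'e]
    have e1 : τ j = h * τ j' * h⁻¹ := by rw [hj'e]; group
    rw [e1]
    have e2 : h * τ j' * h⁻¹ * (h * τ x * h⁻¹) = h * τ (j' * x) * h⁻¹ := by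
      rw [map_mul]; group
    have e3 : h * τ x * h⁻¹ * (h * τ j' * h⁻¹) = h * τ (x * j') * h⁻¹ := by
      rw [map_mul]; group
    rw [e2, e3, hcomm]

theorem snc_le_oct {S : Type u} [Group S] [Finite S] (p : ℕ) :
    stableNormalClosure p S ≤ omegaCenterThompson p S := snc_le_of_mem (oct_mem_wFam p)

theorem snc_mem_wFam {S : Type u} [Group S] [Finite S] (p : ℕ) :
    stableNormalClosure p S ∈ wFam p S := by
  refine ⟨omega_center_le_snc p S, ?_⟩
  intro H _ τ hτ
  have hinj := hτ.1
  constructor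
  intro y hy h
  obtain ⟨x, hx, rfl⟩ := hy
  have h0 := (oct_mem_wFam p (S := S)).2 H τ hτ
  obtain ⟨x', hx', hx'e⟩ := h0.conj_mem _ (Subgroup.mem_map_of_mem τ (snc_le_oct p hx)) h
  refine ⟨x', ?_, hx'e⟩
  show x' ∈ sInf (wFam p S)
  rw [Subgroup.mem_sInf]
  intro W hW
  obtain ⟨x'', hx'', hx''e⟩ := (hW.2 H τ hτ).conj_mem _
    (Subgroup.mem_map_of_mem τ ((sInf_le hW : _ ≤ W) hx)) h
  have : x'' = x' := hinj (hx''e.trans hx'e.symm)
  rw [← this]; exact hx''

theorem snc_map_equiv {S S' : Type u} [Group S] [Group S'] (p : ℕ) (e : S ≃* S') :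
    (stableNormalClosure p S).map e.toMonoidHom = stableNormalClosure p S' := by
  have key : ∀ {S S' : Type u} [Group S] [Group S'] (e : S ≃* S'),
      (stableNormalClosure p S).map e.toMonoidHom ≤ stableNormalClosure p S' := by
    intro S S' _ _ e
    rw [snc_eq p S']
    apply le_sInf
    intro W' hW'
    rw [Subgroup.map_le_iff_le_comap]
    apply snc_le_of_mem
    refine ⟨?_, ?_⟩
    · rw [← Subgroup.map_le_iff_le_comap, omegaOne_map_inj p _ e.injective, center_map_equiv]
      exact hW'.1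
    · intro H _ τ hτ
      have h1 := hW'.2 H (τ.comp e.symm.toMonoidHom) (isStableEmbedding_comp_equiv p e τ hτ)
      have h2 : W'.map (τ.comp e.symm.toMonoidHom) = (W'.comap e.toMonoidHom).map τ := by
        rw [← Subgroup.map_map]
        congr 1
        exact Subgroup.map_equiv_eq_comap_symm e.symm W'
      rw [← h2]; exact h1
  apply le_antisymm (key e)
  have h1 := key e.symm
  have h2 := Subgroup.map_mono (f := e.toMonoidHom) h1
  rw [Subgroup.map_map] at h2
  have h3 : e.toMonoidHom.comp e.symm.toMonoidHom = MonoidHom.id S' := by ext x; simp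
  rw [h3, Subgroup.map_id] at h2
  exact h2

theorem snc_characteristic {S : Type u} [Group S] (p : ℕ) :
    (stableNormalClosure p S).Characteristic :=
  Subgroup.characteristic_iff_map_eq.mpr (fun φ => snc_map_equiv p φ)

theorem snc_ne_bot {S : Type u} [Group S] [Finite S] {p : ℕ} [Fact p.Prime] (hS : IsPGroup p S)
    [Nontrivial S] : stableNormalClosure p S ≠ ⊥ := by
  haveI := hS.center_nontrivial
  have hZ : IsPGroup p (Subgroup.center S) := hS.to_subgroup _
  have hdvd : p ∣ Nat.card (Subgroup.center S) := by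
    rcases hZ.card_eq_or_dvd with h | h
    · exact absurd h (Finite.one_lt_card).ne'
    · exact h
  obtain ⟨x, hx⟩ := exists_prime_orderOf_dvd_card' (G := Subgroup.center S) p hdvd
  have hx1 : (x : S) ≠ 1 := by
    intro h
    have : x = 1 := Subtype.ext h
    rw [this, orderOf_one] at hx
    exact (Fact.out : p.Prime).one_lt.ne hx
  have hxp : (x : S) ^ p = 1 := by
    have := pow_orderOf_eq_one x
    rw [hx] at this
    exact_mod_cast congrArg Subtype.val this
  intro hbot
  have hmem : (x : S) ∈ stableNormalClosure p S :=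
    omega_center_le_snc p S (Subgroup.subset_closure ⟨x.2, hxp⟩)
  rw [hbot, Subgroup.mem_bot] at hmem
  exact hx1 hmem

end Cfsg.Agent.Lib.helper1
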