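import Mathlib
import Cfsg.Agent.Lib.helper1.StableW

/-!
# Quadratic action on `W(S)` (seat helper1)
-/

set_option autoImplicit false

namespace Cfsg.Agent.Lib.helper1

open Cfsg Cfsg.Agent.Lib.helper3
open scoped commutatorElement

universe u

theorem comm_mul_aux {X : Type*} [Group X] (a c w : X) (hac : a * c = c * a) :
    w * (c * a) * w⁻¹ * (c * a)⁻¹
      = (w * a * w⁻¹ * a⁻¹) * (a * (w * c * w⁻¹ * c⁻¹) * a⁻¹) := by
  rw [← hac]; group

/-- Elementwise form of quadratic action. -/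
theorem quad_iff {X : Type*} [Group X] (W : Subgroup X) (a : X) :
    ⁅⁅W, Subgroup.zpowers a⁆, Subgroup.zpowers a⁆ = ⊥ ↔
      ∀ w ∈ W, (w * a * w⁻¹ * a⁻¹) * a = a * (w * a * w⁻¹ * a⁻¹) := by
  constructor
  · intro h w hw
    have h1 : ⁅w, a⁆ ∈ ⁅W, Subgroup.zpowers a⁆ :=
      Subgroup.commutator_mem_commutator hw (Subgroup.mem_zpowers a)
    have h2 : ⁅⁅w, a⁆, a⁆ ∈ ⁅⁅W, Subgroup.zpowers a⁆, Subgroup.zpowers a⁆ :=
      Subgroup.commutator_mem_commutator h1 (Subgroup.mem_zpowers a)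
    rw [h, Subgroup.mem_bot, commutatorElement_eq_one_iff_mul_comm] at h2
    simpa [commutatorElement_def] using h2
  · intro h
    rw [Subgroup.commutator_eq_bot_iff_le_centralizer, Subgroup.commutator_le]
    intro w hw g hg
    obtain ⟨i, rfl⟩ := Subgroup.mem_zpowers_iff.mp hg
    have key : ∀ i : ℤ, (w * a ^ i * w⁻¹ * (a ^ i)⁻¹) * a = a * (w * a ^ i * w⁻¹ * (a ^ i)⁻¹) := by
      intro i
      induction i using Int.induction_on with
      | zero => simp
      | succ n ih =>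
        have hac : a * a ^ (n : ℤ) = a ^ (n : ℤ) * a := ((Commute.refl a).zpow_right n).eq
        rw [zpow_add_one, comm_mul_aux a (a ^ (n : ℤ)) w hac]
        have e1 : a * (w * a ^ (n : ℤ) * w⁻¹ * (a ^ (n : ℤ))⁻¹) * a⁻¹
            = w * a ^ (n : ℤ) * w⁻¹ * (a ^ (n : ℤ))⁻¹ := by
          rw [← ih]; group
        rw [e1, mul_assoc, ih, ← mul_assoc, h w hw, mul_assoc]
      | pred n ih =>
        have hac : a * a ^ (-(n : ℤ) - 1) = a ^ (-(n : ℤ) - 1) * a :=
          ((Commute.refl a).zpow_right _).eq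
        have e0 : a ^ (-(n : ℤ)) = a ^ (-(n : ℤ) - 1) * a := by
          rw [← zpow_add_one]; congr 1; ring
        rw [e0, comm_mul_aux a (a ^ (-(n : ℤ) - 1)) w hac] at ih
        -- ih : (⁅w,a⁆ * (a * c * a⁻¹)) * a = a * (⁅w,a⁆ * (a * c * a⁻¹))
        have hwa := h w hw
        obtain ⟨u, hu⟩ : ∃ u, u = w * a * w⁻¹ * a⁻¹ := ⟨_, rfl⟩
        obtain ⟨c, hc⟩ : ∃ c, c = w * a ^ (-(n : ℤ) - 1) * w⁻¹ * (a ^ (-(n : ℤ) - 1))⁻¹ := ⟨_, rfl⟩
        rw [← hu, ← hc] at ih
        rw [← hu] at hwa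
        rw [← hc]
        -- hwa : u * a = a * u ; ih : u * (a * c * a⁻¹) * a = a * (u * (a * c * a⁻¹))
        have h3 : u * (a * c) = u * (a * (a * c * a⁻¹)) := by
          have : u * (a * c * a⁻¹) * a = u * (a * c) := by group
          rw [← this, ih, ← mul_assoc, ← hwa, mul_assoc]
        have h4 : a * c = a * (a * c * a⁻¹) := mul_left_cancel h3
        have h5 : c = a * c * a⁻¹ := mul_left_cancel h4
        calc c * a = (a * c * a⁻¹) * a := by rw [← h5]
          _ = a * c := by group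
    rw [Subgroup.mem_centralizer_iff]
    intro g' hg'
    obtain ⟨j, rfl⟩ := Subgroup.mem_zpowers_iff.mp hg'
    have hcomm : Commute (w * a ^ i * w⁻¹ * (a ^ i)⁻¹) a := key i
    have := (hcomm.zpow_right j).eq
    rw [commutatorElement_def]
    exact this.symm

/-- Elements acting quadratically on `W(S)` centralize it. -/
theorem snc_quad {S : Type u} [Group S] [Finite S] {p : ℕ} [Fact p.Prime] (x : S)
    (hq : ⁅⁅stableNormalClosure p S, Subgroup.zpowers x⁆, Subgroup.zpowers x⁆ = ⊥) :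
    ⁅stableNormalClosure p S, Subgroup.zpowers x⁆ = ⊥ := by
  obtain ⟨W, hW⟩ : ∃ W : Subgroup S, W = stableNormalClosure p S := ⟨_, rfl⟩
  rw [← hW] at hq ⊢
  let 𝒬 : Set S := {t | ∀ w ∈ W, (w * t * w⁻¹ * t⁻¹) * t = t * (w * t * w⁻¹ * t⁻¹)}
  let T : Subgroup S := Subgroup.closure 𝒬
  have hmem : W ⊓ Subgroup.centralizer (T : Set S) ∈ wFam p S := by
    refine ⟨?_, ?_⟩
    · apply le_inf
      · rw [hW]; exact omega_center_le_snc p S
      · unfold omegaOne
        rw [Subgroup.closure_le]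
        intro z hz
        exact Subgroup.center_le_centralizer _ hz.1
    · intro H _ τ hτ
      have hWn : (W.map τ).Normal := by
        rw [hW]; exact (snc_mem_wFam p).2 H τ hτ
      obtain ⟨hinj, hfin, ⟨P, hP⟩, -, -, hst⟩ := hτ
      haveI := hfin
      haveI := hWn
      have hWle : W.map τ ≤ (omegaCenterThompson p S).map τ := by
        rw [hW]; exact Subgroup.map_mono (snc_le_oct p)
      have hstab := hst (W.map τ) hWle
      constructor
      intro y hy h
      obtain ⟨w, hw, rfl⟩ := hy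
      obtain ⟨hwW, hwT⟩ := Subgroup.mem_inf.mp hw
      obtain ⟨w', hw', hw'e⟩ := hWn.conj_mem _ (Subgroup.mem_map_of_mem τ hwW) h
      refine ⟨w', Subgroup.mem_inf.mpr ⟨hw', ?_⟩, hw'e⟩
      suffices hT : T ≤ Subgroup.centralizer ({w'} : Set S) by
        rw [Subgroup.mem_centralizer_iff]
        intro t ht
        exact Subgroup.mem_centralizer_singleton_iff.mp (hT ht)
      rw [Subgroup.closure_le]
      intro t ht
      rw [SetLike.mem_coe, Subgroup.mem_centralizer_singleton_iff]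
      -- the conjugate of `τ t` acts quadratically
      have haq : ⁅⁅W.map τ, Subgroup.zpowers (h⁻¹ * τ t * h)⁆, Subgroup.zpowers (h⁻¹ * τ t * h)⁆
          = ⊥ := by
        rw [quad_iff]
        intro v hv
        obtain ⟨w0, hw0, hw0e⟩ := hWn.conj_mem v hv h
        have h2 := congrArg τ (ht w0 hw0)
        simp only [map_mul, map_inv, hw0e] at h2
        have e1 : v * (h⁻¹ * τ t * h) * v⁻¹ * (h⁻¹ * τ t * h)⁻¹
            = h⁻¹ * (h * v * h⁻¹ * τ t * (h * v * h⁻¹)⁻¹ * (τ t)⁻¹) * h := by group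
        rw [e1]
        calc h⁻¹ * (h * v * h⁻¹ * τ t * (h * v * h⁻¹)⁻¹ * (τ t)⁻¹) * h * (h⁻¹ * τ t * h)
            = h⁻¹ * ((h * v * h⁻¹ * τ t * (h * v * h⁻¹)⁻¹ * (τ t)⁻¹) * τ t) * h := by group
          _ = h⁻¹ * (τ t * (h * v * h⁻¹ * τ t * (h * v * h⁻¹)⁻¹ * (τ t)⁻¹)) * h := by rw [h2]
          _ = h⁻¹ * τ t * h * (h⁻¹ * (h * v * h⁻¹ * τ t * (h * v * h⁻¹)⁻¹ * (τ t)⁻¹) * h) := by
            group
      have hmk := hstab _ haq
      -- Sylow argument
      obtain ⟨s, c, hc, hsc⟩ : ∃ s : S, ∃ c ∈ Subgroup.centralizer ((W.map τ : Subgroup H) : Set H),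
          h⁻¹ * τ t * h = τ s * c := by
        have hsurj := QuotientGroup.mk'_surjective
          (Subgroup.centralizer ((W.map τ : Subgroup H) : Set H))
        have hle : pCore p (H ⧸ Subgroup.centralizer ((W.map τ : Subgroup H) : Set H))
            ≤ (P.mapSurjective hsurj : Subgroup _) := by
          apply sSup_le
          rintro N ⟨hN, hNp⟩
          haveI := hN
          exact hNp.le_sylow_of_normal _
        have h1 := hle hmk
        rw [Sylow.coe_mapSurjective] at h1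
        obtain ⟨s', hs', hs'e⟩ := h1
        rw [hP] at hs'
        obtain ⟨s, rfl⟩ := hs'
        refine ⟨s, (τ s)⁻¹ * (h⁻¹ * τ t * h), ?_, by group⟩
        have := QuotientGroup.eq.mp hs'e
        exact this
      -- `s` is quadratic
      have hs𝒬 : s ∈ 𝒬 := by
        intro w1 hw1
        apply hinj
        simp only [map_mul, map_inv]
        have hv : τ w1 ∈ W.map τ := Subgroup.mem_map_of_mem τ hw1
        have hq1 := (quad_iff _ _).mp haq (τ w1) hv
        rw [hsc] at hq1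
        have hcv : ∀ v ∈ W.map τ, v * c = c * v := fun v hv' =>
          Subgroup.mem_centralizer_iff.mp hc v hv'
        have hcv' : c * (τ w1)⁻¹ = (τ w1)⁻¹ * c :=
          (hcv _ (Subgroup.inv_mem _ hv)).symm
        have e1 : τ w1 * (τ s * c) * (τ w1)⁻¹ * (τ s * c)⁻¹
            = τ w1 * τ s * (τ w1)⁻¹ * (τ s)⁻¹ := by
          calc τ w1 * (τ s * c) * (τ w1)⁻¹ * (τ s * c)⁻¹
              = τ w1 * τ s * (c * (τ w1)⁻¹) * c⁻¹ * (τ s)⁻¹ := by group
            _ = τ w1 * τ s * ((τ w1)⁻¹ * c) * c⁻¹ * (τ s)⁻¹ := by rw [hcv']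
            _ = τ w1 * τ s * (τ w1)⁻¹ * (τ s)⁻¹ := by group
        rw [e1] at hq1
        -- the commutator lies in W.map τ
        have hu : τ w1 * τ s * (τ w1)⁻¹ * (τ s)⁻¹ ∈ W.map τ := by
          have h3 := hWn.conj_mem _ (Subgroup.inv_mem _ hv) (τ s)
          have h4 := Subgroup.mul_mem _ hv h3
          have e : τ w1 * (τ s * (τ w1)⁻¹ * (τ s)⁻¹) = τ w1 * τ s * (τ w1)⁻¹ * (τ s)⁻¹ := by
            group
          rwa [e] at h4
        have hcu := hcv _ hu
        -- hq1 : u * (τ s * c) = τ s * c * u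
        have h5 : τ w1 * τ s * (τ w1)⁻¹ * (τ s)⁻¹ * τ s * c
            = τ s * (τ w1 * τ s * (τ w1)⁻¹ * (τ s)⁻¹) * c := by
          calc τ w1 * τ s * (τ w1)⁻¹ * (τ s)⁻¹ * τ s * c
              = τ w1 * τ s * (τ w1)⁻¹ * (τ s)⁻¹ * (τ s * c) := by group
            _ = τ s * c * (τ w1 * τ s * (τ w1)⁻¹ * (τ s)⁻¹) := hq1
            _ = τ s * (c * (τ w1 * τ s * (τ w1)⁻¹ * (τ s)⁻¹)) := by group
            _ = τ s * ((τ w1 * τ s * (τ w1)⁻¹ * (τ s)⁻¹) * c) := by rw [hcu]
            _ = τ s * (τ w1 * τ s * (τ w1)⁻¹ * (τ s)⁻¹) * c := by group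
        exact mul_right_cancel h5
      have hsT : s ∈ T := Subgroup.subset_closure hs𝒬
      have h1 : s * w = w * s := Subgroup.mem_centralizer_iff.mp hwT s hsT
      have h2 : τ w * c = c * τ w :=
        Subgroup.mem_centralizer_iff.mp hc (τ w) (Subgroup.mem_map_of_mem τ hwW)
      apply hinj
      rw [map_mul, map_mul, hw'e]
      have ht' : τ t = h * (τ s * c) * h⁻¹ := by rw [← hsc]; group
      rw [ht']
      have h3 : τ s * τ w = τ w * τ s := by rw [← map_mul, ← map_mul, h1]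
      calc h * (τ s * c) * h⁻¹ * (h * τ w * h⁻¹)
          = h * (τ s * (c * τ w)) * h⁻¹ := by group
        _ = h * (τ s * (τ w * c)) * h⁻¹ := by rw [h2]
        _ = h * ((τ s * τ w) * c) * h⁻¹ := by group
        _ = h * ((τ w * τ s) * c) * h⁻¹ := by rw [h3]
        _ = h * τ w * h⁻¹ * (h * (τ s * c) * h⁻¹) := by group
  have hle : W ≤ Subgroup.centralizer (T : Set S) := by
    have := snc_le_of_mem hmem
    rw [← hW] at this
    exact this.trans inf_le_right
  have hx : x ∈ T := Subgroup.subset_closure ((quad_iff W x).mp hq)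
  rw [Subgroup.commutator_eq_bot_iff_le_centralizer]
  intro w hw
  rw [Subgroup.mem_centralizer_iff]
  intro g hg
  obtain ⟨i, rfl⟩ := Subgroup.mem_zpowers_iff.mp hg
  have h1 : x * w = w * x := Subgroup.mem_centralizer_iff.mp (hle hw) x hx
  have h2 : Commute x w := h1
  exact (h2.zpow_left i).eq

end Cfsg.Agent.Lib.helper1
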