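import Mathlib
import Cfsg.Agent.Lib.helper1.StableW2
import Cfsg.Agent.Lib.helper8.CoprimeAction
import Cfsg.Agent.Lib.helper14.Basic
import Cfsg.Agent.Lib.helper15.SylGen
import Cfsg.Agent.Lib.helper1.ThompsonJ
import Cfsg.Agent.Lib.helper1.Fitting
import Cfsg.Agent.S0607

/-!
# `W(S)` is normal in action-`p`-stable groups of characteristic `p` type (seat helper1)
-/

set_option autoImplicit false

namespace Cfsg.Agent.Lib.helper1

open Cfsg Cfsg.Agent.Lib.helper3
open scoped commutatorElement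

universe u

/-- conjugation by an element of the normalizer as an automorphism. -/
def conjNormEquivW {G : Type*} [Group G] (P : Subgroup G) (g : G)
    (hg : g ∈ Subgroup.normalizer (P : Set G)) : ↥P ≃* ↥P where
  toFun x := ⟨g * x * g⁻¹, (Subgroup.mem_normalizer_iff.1 hg x).1 x.2⟩
  invFun x := ⟨g⁻¹ * x * g, by
    have := (Subgroup.mem_normalizer_iff.1 (Subgroup.inv_mem _ hg) x).1 x.2
    simpa using this⟩
  left_inv x := by apply Subtype.ext; simp [mul_assoc]
  right_inv x := by apply Subtype.ext; simp [mul_assoc]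
  map_mul' x y := by apply Subtype.ext; simp [mul_assoc]

theorem normalizer_le_normalizer_map_charW {G : Type*} [Group G] (P : Subgroup G)
    (C : Subgroup ↥P) (hC : C.Characteristic) :
    Subgroup.normalizer (P : Set G) ≤
      Subgroup.normalizer ((C.map P.subtype : Subgroup G) : Set G) := by
  apply Cfsg.Agent.Lib.helper8.le_normalizer_of_conj_mem
  rintro g hg _ ⟨c, hc, rfl⟩
  have h1 := Subgroup.characteristic_iff_map_eq.1 hC (conjNormEquivW P g hg)
  have h2 : conjNormEquivW P g hg c ∈ C := by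
    rw [← h1]; exact Subgroup.mem_map_of_mem _ hc
  exact ⟨_, h2, rfl⟩

/-- Burnside: the kernel of the action on `Q/Φ(Q)` is a `p`-group when `C_G(Q) ≤ Q`. -/
theorem sectionKernel_frattini_isPGroup {G : Type*} [Group G] [Finite G] {p : ℕ} [Fact p.Prime]
    (Q : Subgroup G) [hQn : Q.Normal] (hQ : IsPGroup p Q)
    (hc : Subgroup.centralizer (Q : Set G) ≤ Q)
    (Φ : Subgroup G) [hΦn : Φ.Normal] (hΦ : Φ = (frattini ↥Q).map Q.subtype) :
    IsPGroup p (sectionKernel Q Φ) := by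
  apply Cfsg.Agent.Lib.helper14.isPGroup_of_coprime_trivial
  intro x hx hcop
  have hker : ∀ a ∈ sectionKernel Q Φ, ∀ q ∈ Q, a * q * a⁻¹ * q⁻¹ ∈ Φ := by
    intro a ha q hq
    have ha' : a⁻¹ ∈ sectionKernel Q Φ := Subgroup.inv_mem _ ha
    unfold sectionKernel at ha'
    rw [Subgroup.mem_comap, Subgroup.mem_centralizer_iff] at ha'
    have h1 := ha' (QuotientGroup.mk' Φ q⁻¹) (Subgroup.mem_map_of_mem _ (Q.inv_mem hq))
    rw [← map_mul, ← map_mul] at h1
    have h1' : ((q⁻¹ * a⁻¹ : G) : G ⧸ Φ) = ((a⁻¹ * q⁻¹ : G) : G ⧸ Φ) := h1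
    have h2 := QuotientGroup.eq.mp h1'
    have e : (q⁻¹ * a⁻¹)⁻¹ * (a⁻¹ * q⁻¹) = a * q * a⁻¹ * q⁻¹ := by group
    rwa [e] at h2
  have hxz : Subgroup.zpowers x ≤ sectionKernel Q Φ := by
    rw [Subgroup.zpowers_le]; exact hx
  obtain ⟨n, hn⟩ := hQ.exists_card_eq
  have hcard : (Nat.card (Subgroup.zpowers x)).Coprime (Nat.card Q) := by
    rw [Nat.card_zpowers, hn]; exact Nat.Coprime.pow_right n hcop
  have hsolv : Group.IsSolvable ↥(Subgroup.zpowers x) := by
    apply isSolvable_of_comm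
    rintro ⟨a, ha⟩ ⟨b, hb⟩
    obtain ⟨i, rfl⟩ := Subgroup.mem_zpowers_iff.mp ha
    obtain ⟨j, rfl⟩ := Subgroup.mem_zpowers_iff.mp hb
    apply Subtype.ext
    show x ^ i * x ^ j = x ^ j * x ^ i
    rw [← zpow_add, ← zpow_add, add_comm]
  have hΦQ : Φ ≤ Q := by rw [hΦ]; exact Subgroup.map_subtype_le _
  have hall : ∀ q ∈ Q, q ∈ Subgroup.centralizer (Subgroup.zpowers x : Set G) := by
    obtain ⟨C, hC⟩ : ∃ C : Subgroup ↥Q,
        C = (Subgroup.centralizer (Subgroup.zpowers x : Set G)).subgroupOf Q := ⟨_, rfl⟩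
    have hCtop : C ⊔ frattini ↥Q = ⊤ := by
      rw [eq_top_iff]
      rintro ⟨q, hq⟩ -
      obtain ⟨c, hc', hqc⟩ := Cfsg.Agent.Lib.helper8.coprime_fixed_quot (Subgroup.zpowers x) Q
        hcard (Or.inl hsolv) Φ hΦQ (by rw [Subgroup.normalizer_eq_top]; exact le_top)
        (by rw [Subgroup.normalizer_eq_top]; exact le_top) q hq
        (fun a ha => hker a (hxz ha) q hq)
      obtain ⟨hcQ, hcC⟩ := Subgroup.mem_inf.mp hc'
      rw [hΦ] at hqc
      obtain ⟨f, hf, hfe⟩ := hqc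
      have hfe' : (f : G) = q⁻¹ * c := hfe
      have e : (⟨q, hq⟩ : ↥Q) = ⟨c, hcQ⟩ * f⁻¹ := by
        apply Subtype.ext
        show q = c * (f : G)⁻¹
        rw [hfe']; group
      rw [e]
      refine Subgroup.mul_mem _ (Subgroup.mem_sup_left ?_)
        (Subgroup.mem_sup_right (Subgroup.inv_mem _ hf))
      rw [hC]
      exact Subgroup.mem_subgroupOf.mpr hcC
    have hC' := frattini_nongenerating hCtop
    intro q hq
    have hmem : (⟨q, hq⟩ : ↥Q) ∈ C := by rw [hC']; trivial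
    rw [hC] at hmem
    exact Subgroup.mem_subgroupOf.mp hmem
  have hxc : x ∈ Subgroup.centralizer (Q : Set G) := by
    rw [Subgroup.mem_centralizer_iff]
    intro q hq
    have := Subgroup.mem_centralizer_iff.mp (hall q hq) x (Subgroup.mem_zpowers x)
    exact this.symm
  have hxQ : x ∈ Q := hc hxc
  obtain ⟨k, hk⟩ := hQ ⟨x, hxQ⟩
  have hk' : x ^ (p ^ k) = 1 := by
    have := congrArg Subtype.val hk
    simpa using this
  exact Cfsg.Agent.Lib.helper14.eq_one_of_coprime_of_pow x ⟨k, hk'⟩ hcop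

theorem oct_comm {S : Type u} [Group S] (p : ℕ) :
    ∀ a ∈ omegaCenterThompson p S, ∀ b ∈ omegaCenterThompson p S, a * b = b * a := by
  have hle : omegaCenterThompson p S ≤
      thompsonSubgroup p S ⊓ Subgroup.centralizer (thompsonSubgroup p S : Set S) := by
    unfold omegaCenterThompson omegaOne
    rw [Subgroup.closure_le]
    intro x hx
    exact hx.1
  intro a ha b hb
  have ha' := Subgroup.mem_inf.mp (hle ha)
  have hb' := Subgroup.mem_inf.mp (hle hb)
  exact Subgroup.mem_centralizer_iff.mp hb'.2 a ha'.1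

theorem oct_exp {S : Type u} [Group S] (p : ℕ) :
    ∀ a ∈ omegaCenterThompson p S, a ^ p = 1 := by
  have hcomm := oct_comm (S := S) p
  have key : ∀ a ∈ Subgroup.closure {x : S | x ∈ thompsonSubgroup p S ⊓
      Subgroup.centralizer (thompsonSubgroup p S : Set S) ∧ x ^ p = 1}, a ^ p = 1 := by
    intro a ha
    induction ha using Subgroup.closure_induction with
    | mem x hx => exact hx.2
    | one => exact one_pow p
    | mul x y hx hy ihx ihy =>
      have hc : Commute x y := hcomm x hx y hy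
      rw [hc.mul_pow, ihx, ihy, one_mul]
    | inv x hx ih => rw [inv_pow, ih, inv_one]
  intro a ha
  exact key a ha

theorem snc_quad_sub {G : Type u} [Group G] [Finite G] {p : ℕ} [Fact p.Prime] (S : Subgroup G)
    (x : G) (hx : x ∈ S)
    (hq : ∀ w ∈ (stableNormalClosure p ↥S).map S.subtype,
      (w * x * w⁻¹ * x⁻¹) * x = x * (w * x * w⁻¹ * x⁻¹)) :
    ∀ w ∈ (stableNormalClosure p ↥S).map S.subtype, w * x = x * w := by
  have h1 : ⁅⁅stableNormalClosure p ↥S, Subgroup.zpowers (⟨x, hx⟩ : ↥S)⁆,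
      Subgroup.zpowers (⟨x, hx⟩ : ↥S)⁆ = ⊥ := by
    rw [quad_iff]
    intro w hw
    apply Subtype.ext
    exact hq (w : G) (Subgroup.mem_map_of_mem _ hw)
  have h2 := snc_quad (⟨x, hx⟩ : ↥S) h1
  rintro _ ⟨w, hw, rfl⟩
  have h3 : ⁅w, (⟨x, hx⟩ : ↥S)⁆ ∈ ⁅stableNormalClosure p ↥S, Subgroup.zpowers (⟨x, hx⟩ : ↥S)⁆ :=
    Subgroup.commutator_mem_commutator hw (Subgroup.mem_zpowers _)
  rw [h2, Subgroup.mem_bot, commutatorElement_eq_one_iff_mul_comm] at h3
  exact congrArg Subtype.val h3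

theorem stableEmbedding_inclusion {G : Type u} [Group G] [Finite G] {p : ℕ} [Fact p.Prime]
    (S : Sylow p G) (N : Subgroup G) (hSN : (S : Subgroup G) ≤ N)
    (hc : Subgroup.centralizer (pCore p G : Set G) ≤ pCore p G)
    (hJ : N ≤ Subgroup.normalizer (thompsonSubgroupOf p (S : Subgroup G) : Set G))
    (hst : ∀ (V : Subgroup ↥N) [V.Normal],
      V.map N.subtype ≤ (omegaCenterThompson p ↥(S : Subgroup G)).map (S : Subgroup G).subtype →
        IsPStableOn p V) :
    IsStableEmbedding p (Subgroup.inclusion hSN) := by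
  have hQn := pCore_normal p G
  have hQp := pCore_isPGroup p G
  have hQS : pCore p G ≤ S := hQp.le_sylow_of_normal S
  refine ⟨Subgroup.inclusion_injective hSN, inferInstance, ⟨S.subtype hSN, ?_⟩, ?_, ?_, ?_⟩
  · rw [Sylow.coe_subtype]
    ext x
    rw [Subgroup.mem_subgroupOf, MonoidHom.mem_range]
    constructor
    · intro hx
      exact ⟨⟨x, hx⟩, Subtype.ext rfl⟩
    · rintro ⟨s, rfl⟩
      exact s.2
  · intro x hx
    have hsub : (pCore p G).subgroupOf N ≤ pCore p ↥N := by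
      apply le_pCore
      · infer_instance
      · exact hQp.comap_subtype
    apply hsub
    rw [Subgroup.mem_subgroupOf]
    apply hc
    rw [Subgroup.mem_centralizer_iff]
    intro q hq
    have hqN : q ∈ N := hSN (hQS hq)
    have := Subgroup.mem_centralizer_iff.mp hx ⟨q, hqN⟩ (hsub (Subgroup.mem_subgroupOf.mpr hq))
    exact congrArg Subtype.val this
  · constructor
    rintro _ ⟨j, hj, rfl⟩ n
    have hn := hJ n.2
    have h1 : (j : G) ∈ thompsonSubgroupOf p (S : Subgroup G) := ⟨j, hj, rfl⟩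
    have h2 := Cfsg.Agent.Lib.helper8.conj_mem_of_mem_normalizer hn h1
    obtain ⟨j', hj', hj'e⟩ := h2
    refine ⟨j', hj', ?_⟩
    apply Subtype.ext
    exact hj'e
  · intro V _ hV
    apply hst V
    rintro _ ⟨v, hv, rfl⟩
    obtain ⟨w, hw, rfl⟩ := hV hv
    exact ⟨w, hw, rfl⟩

theorem le_normalizer_snc {G : Type u} [Group G] [Finite G] {p : ℕ} [Fact p.Prime]
    (S : Sylow p G) (N : Subgroup G) (hSN : (S : Subgroup G) ≤ N)
    (hτ : IsStableEmbedding p (Subgroup.inclusion hSN)) :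
    N ≤ Subgroup.normalizer (((stableNormalClosure p ↥(S : Subgroup G)).map
      (S : Subgroup G).subtype : Subgroup G) : Set G) := by
  have hWn : ((stableNormalClosure p ↥(S : Subgroup G)).map (Subgroup.inclusion hSN)).Normal :=
    (snc_mem_wFam p).2 _ _ hτ
  apply Cfsg.Agent.Lib.helper8.le_normalizer_of_conj_mem
  rintro n hn _ ⟨w, hw, rfl⟩
  obtain ⟨w', hw', hw'e⟩ := hWn.conj_mem _ (Subgroup.mem_map_of_mem _ hw) ⟨n, hn⟩
  refine ⟨w', hw', ?_⟩
  exact congrArg Subtype.val hw'e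

/-- **KS 9.4.5**: `W(S)` is normal in an action-`p`-stable group with `C_G(O_p(G)) ≤ O_p(G)`. -/
theorem snc_normal_main {G : Type u} [Group G] [Finite G] {p : ℕ} [Fact p.Prime]
    (hst : IsActionPStable p G)
    (hc : Subgroup.centralizer (pCore p G : Set G) ≤ pCore p G) (S : Sylow p G) :
    ((stableNormalClosure p ↥(S : Subgroup G)).map (S : Subgroup G).subtype).Normal := by
  obtain ⟨h_i, h_ii, h_iii⟩ := hst
  have hQn := pCore_normal p G
  have hQp := pCore_isPGroup p G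
  have hQS : pCore p G ≤ S := hQp.le_sylow_of_normal S
  -- Step 1
  have hSJ : (S : Subgroup G) ≤
      Subgroup.normalizer (thompsonSubgroupOf p (S : Subgroup G) : Set G) :=
    Subgroup.le_normalizer.trans (normalizer_le_normalizer_map_charW _ _
      (Subgroup.characteristic_iff_map_eq.mpr (fun φ => thompsonSubgroup_map_equiv p φ)))
  have hNW := le_normalizer_snc S _ hSJ
    (stableEmbedding_inclusion S _ hSJ hc le_rfl (fun V _ hV => h_iii S V hV))
  obtain ⟨W, hW⟩ : ∃ W : Subgroup G,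
      W = (stableNormalClosure p ↥(S : Subgroup G)).map (S : Subgroup G).subtype := ⟨_, rfl⟩
  rw [← hW] at hNW ⊢
  have hWS : W ≤ S := by rw [hW]; exact Subgroup.map_subtype_le _
  have hSW : ∀ s ∈ S, ∀ w ∈ W, s * w * s⁻¹ ∈ W := fun s hs w hw =>
    Cfsg.Agent.Lib.helper8.conj_mem_of_mem_normalizer (hNW (hSJ hs)) hw
  have hoct : W ≤ (omegaCenterThompson p ↥(S : Subgroup G)).map (S : Subgroup G).subtype := by
    rw [hW]; exact Subgroup.map_mono (snc_le_oct p)
  have hWab : ∀ a ∈ W, ∀ b ∈ W, a * b = b * a := by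
    intro a ha b hb
    obtain ⟨a', ha', rfl⟩ := hoct ha
    obtain ⟨b', hb', rfl⟩ := hoct hb
    exact congrArg Subtype.val (oct_comm p a' ha' b' hb')
  have hWexp : ∀ a ∈ W, a ^ p = 1 := by
    intro a ha
    obtain ⟨a', ha', rfl⟩ := hoct ha
    have := congrArg Subtype.val (oct_exp p a' ha')
    simpa using this
  have hWquad : ∀ x ∈ S, (∀ w ∈ W, (w * x * w⁻¹ * x⁻¹) * x = x * (w * x * w⁻¹ * x⁻¹)) →
      ∀ w ∈ W, w * x = x * w := by
    intro x hx hq
    rw [hW] at hq ⊢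
    exact snc_quad_sub (S : Subgroup G) x hx hq
  -- Step 2: W ≤ O_p(G)
  have hWQ : W ≤ pCore p G := by
    intro a ha
    have hquad : ⁅⁅pCore p G, Subgroup.zpowers a⁆, Subgroup.zpowers a⁆ = ⊥ := by
      rw [quad_iff]
      intro q hq
      have h1 : q * a * q⁻¹ ∈ W := hSW q (hQS hq) a ha
      have h2 : q * a * q⁻¹ * a⁻¹ ∈ W := W.mul_mem h1 (W.inv_mem ha)
      exact hWab _ h2 a ha
    obtain ⟨D, hDn, hKD, ⟨k, hk⟩, haD⟩ := h_ii a (by rw [hquad]; exact bot_le)
    have hKp := sectionKernel_frattini_isPGroup (pCore p G) hQp hc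
      ((frattini ↥(pCore p G)).map (pCore p G).subtype) rfl
    obtain ⟨m, hm⟩ := hKp.exists_card_eq
    have hDp : IsPGroup p D := by
      apply IsPGroup.of_card (n := k + m)
      have h1 := Subgroup.index_mul_card ((sectionKernel (pCore p G)
        ((frattini ↥(pCore p G)).map (pCore p G).subtype)).subgroupOf D)
      have h2 : Nat.card ((sectionKernel (pCore p G)
          ((frattini ↥(pCore p G)).map (pCore p G).subtype)).subgroupOf D)
          = Nat.card (sectionKernel (pCore p G)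
            ((frattini ↥(pCore p G)).map (pCore p G).subtype)) :=
        Nat.card_congr (Subgroup.subgroupOfEquivOfLe hKD).toEquiv
      rw [h2, hm] at h1
      rw [← h1]
      show (sectionKernel (pCore p G)
        ((frattini ↥(pCore p G)).map (pCore p G).subtype)).relIndex D * p ^ m = p ^ (k + m)
      rw [hk, pow_add]
    exact le_pCore hDn hDp haD
  -- Step 3: the normal closure V of W is elementary abelian
  obtain ⟨V, hV⟩ : ∃ V : Subgroup G,
      V = Subgroup.closure {y : G | ∃ g : G, ∃ w ∈ W, y = g * w * g⁻¹} := ⟨_, rfl⟩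
  have hVn : V.Normal := by
    constructor
    intro y hy h
    rw [hV] at hy ⊢
    induction hy using Subgroup.closure_induction with
    | mem x hx =>
      obtain ⟨g, w, hw, rfl⟩ := hx
      apply Subgroup.subset_closure
      exact ⟨h * g, w, hw, by group⟩
    | one => simp
    | mul x y _ _ ihx ihy =>
      have e : h * (x * y) * h⁻¹ = (h * x * h⁻¹) * (h * y * h⁻¹) := by group
      rw [e]; exact Subgroup.mul_mem _ ihx ihy
    | inv x _ ih =>
      have e : h * x⁻¹ * h⁻¹ = (h * x * h⁻¹)⁻¹ := by group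
      rw [e]; exact Subgroup.inv_mem _ ih
  have hWV : W ≤ V := by
    intro w hw
    rw [hV]
    apply Subgroup.subset_closure
    exact ⟨1, w, hw, by group⟩
  have hVQ : V ≤ pCore p G := by
    rw [hV, Subgroup.closure_le]
    rintro _ ⟨g, w, hw, rfl⟩
    exact hQn.conj_mem _ (hWQ hw) g
  have hcomm0 : ∀ g : G, ∀ w1 ∈ W, ∀ w2 ∈ W,
      w1 * (g * w2 * g⁻¹) = (g * w2 * g⁻¹) * w1 := by
    intro g w1 hw1 w2 hw2
    have hxQ : g * w2 * g⁻¹ ∈ pCore p G := hQn.conj_mem _ (hWQ hw2) g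
    apply hWquad _ (hQS hxQ) _ w1 hw1
    intro w hw
    have hw' : g⁻¹ * w * g ∈ S := by
      have h1 : g⁻¹ * w * g ∈ pCore p G := by
        have := hQn.conj_mem _ (hWQ hw) g⁻¹
        simpa using this
      exact hQS h1
    have hu' : (g⁻¹ * w * g) * w2 * (g⁻¹ * w * g)⁻¹ * w2⁻¹ ∈ W :=
      W.mul_mem (hSW _ hw' w2 hw2) (W.inv_mem hw2)
    have hcc := hWab _ hu' w2 hw2
    have e1 : w * (g * w2 * g⁻¹) * w⁻¹ * (g * w2 * g⁻¹)⁻¹
        = g * ((g⁻¹ * w * g) * w2 * (g⁻¹ * w * g)⁻¹ * w2⁻¹) * g⁻¹ := by group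
    rw [e1]
    calc g * ((g⁻¹ * w * g) * w2 * (g⁻¹ * w * g)⁻¹ * w2⁻¹) * g⁻¹ * (g * w2 * g⁻¹)
        = g * (((g⁻¹ * w * g) * w2 * (g⁻¹ * w * g)⁻¹ * w2⁻¹) * w2) * g⁻¹ := by group
      _ = g * (w2 * ((g⁻¹ * w * g) * w2 * (g⁻¹ * w * g)⁻¹ * w2⁻¹)) * g⁻¹ := by rw [hcc]
      _ = g * w2 * g⁻¹ * (g * ((g⁻¹ * w * g) * w2 * (g⁻¹ * w * g)⁻¹ * w2⁻¹) * g⁻¹) := by group
  have hcomm1 : ∀ g1 g2 : G, ∀ w1 ∈ W, ∀ w2 ∈ W,
      (g1 * w1 * g1⁻¹) * (g2 * w2 * g2⁻¹) = (g2 * w2 * g2⁻¹) * (g1 * w1 * g1⁻¹) := by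
    intro g1 g2 w1 hw1 w2 hw2
    have h := hcomm0 (g1⁻¹ * g2) w1 hw1 w2 hw2
    calc (g1 * w1 * g1⁻¹) * (g2 * w2 * g2⁻¹)
        = g1 * (w1 * (g1⁻¹ * g2 * w2 * (g1⁻¹ * g2)⁻¹)) * g1⁻¹ := by group
      _ = g1 * ((g1⁻¹ * g2 * w2 * (g1⁻¹ * g2)⁻¹) * w1) * g1⁻¹ := by rw [h]
      _ = (g2 * w2 * g2⁻¹) * (g1 * w1 * g1⁻¹) := by group
  have hVab : ∀ a ∈ V, ∀ b ∈ V, a * b = b * a := by
    have h1 : ∀ g : G, ∀ w ∈ W, V ≤ Subgroup.centralizer ({g * w * g⁻¹} : Set G) := by
      intro g w hw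
      rw [hV, Subgroup.closure_le]
      rintro _ ⟨g2, w2, hw2, rfl⟩
      rw [SetLike.mem_coe, Subgroup.mem_centralizer_singleton_iff]
      exact hcomm1 g2 g w2 hw2 w hw
    intro a ha b hb
    have h2 : V ≤ Subgroup.centralizer ({b} : Set G) := by
      rw [hV, Subgroup.closure_le]
      rintro _ ⟨g, w, hw, rfl⟩
      rw [SetLike.mem_coe, Subgroup.mem_centralizer_singleton_iff]
      have := Subgroup.mem_centralizer_singleton_iff.mp (h1 g w hw hb)
      exact this.symm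
    exact Subgroup.mem_centralizer_singleton_iff.mp (h2 ha)
  have hVexp : ∀ a ∈ V, a ^ p = 1 := by
    have key : ∀ a ∈ Subgroup.closure {y : G | ∃ g : G, ∃ w ∈ W, y = g * w * g⁻¹},
        a ^ p = 1 := by
      intro a ha
      induction ha using Subgroup.closure_induction with
      | mem x hx =>
        obtain ⟨g, w, hw, rfl⟩ := hx
        rw [conj_pow, hWexp w hw]; group
      | one => exact one_pow p
      | mul x y hx hy ihx ihy =>
        have hc' : Commute x y := hVab x (by rw [hV]; exact hx) y (by rw [hV]; exact hy)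
        rw [hc'.mul_pow, ihx, ihy, one_mul]
      | inv x hx ih => rw [inv_pow, ih, inv_one]
    intro a ha
    exact key a (by rw [hV] at ha; exact ha)
  have hVea : IsElementaryAbelian p V := (isEA_iff p V).mpr ⟨hVab, hVexp⟩
  -- Step 4: quadratic elements centralize V
  have hstV := h_i V hVea
  have hquadC : ∀ a : G, (∀ v ∈ V, (v * a * v⁻¹ * a⁻¹) * a = a * (v * a * v⁻¹ * a⁻¹)) →
      a ∈ Subgroup.centralizer (V : Set G) := by
    intro a ha
    suffices h : ∀ g : G, ∀ w ∈ W, (g * w * g⁻¹) * a = a * (g * w * g⁻¹) by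
      have h2 : V ≤ Subgroup.centralizer ({a} : Set G) := by
        rw [hV, Subgroup.closure_le]
        rintro _ ⟨g, w, hw, rfl⟩
        rw [SetLike.mem_coe, Subgroup.mem_centralizer_singleton_iff]
        exact h g w hw
      rw [Subgroup.mem_centralizer_iff]
      intro v hv
      exact Subgroup.mem_centralizer_singleton_iff.mp (h2 hv)
    intro g w hw
    obtain ⟨a', ha'⟩ : ∃ a' : G, a' = g⁻¹ * a * g := ⟨_, rfl⟩
    have hq' : ∀ v ∈ V, (v * a' * v⁻¹ * a'⁻¹) * a' = a' * (v * a' * v⁻¹ * a'⁻¹) := by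
      intro v hv
      have h1 := ha (g * v * g⁻¹) (hVn.conj_mem v hv g)
      rw [ha']
      have e1 : v * (g⁻¹ * a * g) * v⁻¹ * (g⁻¹ * a * g)⁻¹
          = g⁻¹ * ((g * v * g⁻¹) * a * (g * v * g⁻¹)⁻¹ * a⁻¹) * g := by group
      rw [e1]
      calc g⁻¹ * ((g * v * g⁻¹) * a * (g * v * g⁻¹)⁻¹ * a⁻¹) * g * (g⁻¹ * a * g)
          = g⁻¹ * (((g * v * g⁻¹) * a * (g * v * g⁻¹)⁻¹ * a⁻¹) * a) * g := by group
        _ = g⁻¹ * (a * ((g * v * g⁻¹) * a * (g * v * g⁻¹)⁻¹ * a⁻¹)) * g := by rw [h1]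
        _ = g⁻¹ * a * g * (g⁻¹ * ((g * v * g⁻¹) * a * (g * v * g⁻¹)⁻¹ * a⁻¹) * g) := by group
    have hmk := hstV a' ((quad_iff V a').mpr hq')
    obtain ⟨s, hs, c, hcC, hsc⟩ : ∃ s ∈ S, ∃ c ∈ Subgroup.centralizer (V : Set G),
        a' = s * c := by
      have hsurj := QuotientGroup.mk'_surjective (Subgroup.centralizer (V : Set G))
      have hle : pCore p (G ⧸ Subgroup.centralizer (V : Set G))
          ≤ (S.mapSurjective hsurj : Subgroup _) := by
        apply sSup_le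
        rintro N ⟨hN, hNp⟩
        haveI := hN
        exact hNp.le_sylow_of_normal _
      have h1 := hle hmk
      rw [Sylow.coe_mapSurjective] at h1
      obtain ⟨s, hs, hse⟩ := h1
      refine ⟨s, hs, s⁻¹ * a', ?_, by group⟩
      exact QuotientGroup.eq.mp hse
    have hcv : ∀ v ∈ V, v * c = c * v := fun v hv => Subgroup.mem_centralizer_iff.mp hcC v hv
    have hsq : ∀ w1 ∈ W, (w1 * s * w1⁻¹ * s⁻¹) * s = s * (w1 * s * w1⁻¹ * s⁻¹) := by
      intro w1 hw1
      have hv : w1 ∈ V := hWV hw1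
      have hq1 := hq' w1 hv
      rw [hsc] at hq1
      have hcv' : c * w1⁻¹ = w1⁻¹ * c := (hcv _ (V.inv_mem hv)).symm
      have e1 : w1 * (s * c) * w1⁻¹ * (s * c)⁻¹ = w1 * s * w1⁻¹ * s⁻¹ := by
        calc w1 * (s * c) * w1⁻¹ * (s * c)⁻¹ = w1 * s * (c * w1⁻¹) * c⁻¹ * s⁻¹ := by group
          _ = w1 * s * (w1⁻¹ * c) * c⁻¹ * s⁻¹ := by rw [hcv']
          _ = w1 * s * w1⁻¹ * s⁻¹ := by group
      rw [e1] at hq1
      have hu : w1 * s * w1⁻¹ * s⁻¹ ∈ V := by
        have h3 := hVn.conj_mem _ (V.inv_mem hv) s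
        have h4 := V.mul_mem hv h3
        have e : w1 * (s * w1⁻¹ * s⁻¹) = w1 * s * w1⁻¹ * s⁻¹ := by group
        rwa [e] at h4
      have hcu := hcv _ hu
      have h5 : w1 * s * w1⁻¹ * s⁻¹ * s * c = s * (w1 * s * w1⁻¹ * s⁻¹) * c := by
        calc w1 * s * w1⁻¹ * s⁻¹ * s * c = w1 * s * w1⁻¹ * s⁻¹ * (s * c) := by group
          _ = s * c * (w1 * s * w1⁻¹ * s⁻¹) := hq1
          _ = s * (c * (w1 * s * w1⁻¹ * s⁻¹)) := by group
          _ = s * ((w1 * s * w1⁻¹ * s⁻¹) * c) := by rw [hcu]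
          _ = s * (w1 * s * w1⁻¹ * s⁻¹) * c := by group
      exact mul_right_cancel h5
    have hsw := hWquad s hs hsq w hw
    have hcw := hcv w (hWV hw)
    have ha2 : a = g * (s * c) * g⁻¹ := by rw [← hsc, ha']; group
    rw [ha2]
    calc g * w * g⁻¹ * (g * (s * c) * g⁻¹) = g * (w * s * c) * g⁻¹ := by group
      _ = g * (s * w * c) * g⁻¹ := by rw [hsw]
      _ = g * (s * (w * c)) * g⁻¹ := by group
      _ = g * (s * (c * w)) * g⁻¹ := by rw [hcw]
      _ = g * (s * c) * g⁻¹ * (g * w * g⁻¹) := by group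
  -- Step 5: J(S) centralizes V
  obtain ⟨C, hC⟩ : ∃ C : Subgroup G, C = Subgroup.centralizer (V : Set G) := ⟨_, rfl⟩
  have hCn : C.Normal := by rw [hC]; infer_instance
  have hJC : thompsonSubgroupOf p (S : Subgroup G) ≤ C := by
    unfold thompsonSubgroupOf thompsonSubgroup
    rw [Subgroup.map_le_iff_le_comap, sSup_le_iff]
    intro A hA
    obtain ⟨V1, hV1⟩ : ∃ V1 : Subgroup ↥(S : Subgroup G),
        V1 = V.subgroupOf (S : Subgroup G) := ⟨_, rfl⟩
    have hV1n : V1.Normal := by rw [hV1]; infer_instance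
    have hV1ea : IsElementaryAbelian p V1 := by
      rw [isEA_iff, hV1]
      constructor
      · intro a ha b hb
        apply Subtype.ext
        exact hVab _ (Subgroup.mem_subgroupOf.mp ha) _ (Subgroup.mem_subgroupOf.mp hb)
      · intro a ha
        apply Subtype.ext
        have := hVexp _ (Subgroup.mem_subgroupOf.mp ha)
        simpa using this
    obtain ⟨-, hquad, hne⟩ := Cfsg.Agent.S0607.result V1 hV1ea A hA
    have hVA : ⁅V1, A⁆ = ⊥ := by
      by_contra hcon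
      apply hne hcon
      rw [Subgroup.commutator_eq_bot_iff_le_centralizer]
      intro v hv
      rw [Subgroup.mem_centralizer_iff]
      intro a ha
      have haq : ∀ v' ∈ V, (v' * (a : G) * v'⁻¹ * (a : G)⁻¹) * (a : G)
          = (a : G) * (v' * (a : G) * v'⁻¹ * (a : G)⁻¹) := by
        intro v' hv'
        have hv'S : v' ∈ S := hQS (hVQ hv')
        have hv1 : (⟨v', hv'S⟩ : ↥(S : Subgroup G)) ∈ V1 := by
          rw [hV1]; exact Subgroup.mem_subgroupOf.mpr hv'
        have h1 : ⁅⁅V1, Subgroup.zpowers a⁆, Subgroup.zpowers a⁆ = ⊥ := by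
          rw [eq_bot_iff, ← hquad]
          exact Subgroup.commutator_mono
            (Subgroup.commutator_mono le_rfl ((Subgroup.zpowers_le).mpr ha))
            ((Subgroup.zpowers_le).mpr ha)
        have h2 := (quad_iff V1 a).mp h1 ⟨v', hv'S⟩ hv1
        exact congrArg Subtype.val h2
      have haC := hquadC (a : G) haq
      have hvV : (v : G) ∈ V := by rw [hV1] at hv; exact Subgroup.mem_subgroupOf.mp hv
      have := Subgroup.mem_centralizer_iff.mp haC (v : G) hvV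
      apply Subtype.ext
      exact this.symm
    intro a ha
    rw [Subgroup.mem_comap, hC, Subgroup.mem_centralizer_iff]
    intro v hv
    have hvS : v ∈ S := hQS (hVQ hv)
    have h1 : ⁅(⟨v, hvS⟩ : ↥(S : Subgroup G)), a⁆ ∈ ⁅V1, A⁆ :=
      Subgroup.commutator_mem_commutator (by rw [hV1]; exact Subgroup.mem_subgroupOf.mpr hv) ha
    rw [hVA, Subgroup.mem_bot, commutatorElement_eq_one_iff_mul_comm] at h1
    exact congrArg Subtype.val h1
  -- Step 6: Frattini argument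
  have hJS : thompsonSubgroupOf p (S : Subgroup G) ≤ S := Subgroup.map_subtype_le _
  constructor
  intro w hw g
  obtain ⟨hfr, -⟩ := Cfsg.Agent.Lib.helper15.frattini_inf S C
  have hg : g ∈ Subgroup.normalizer (((S : Subgroup G) ⊓ C : Subgroup G) : Set G) ⊔ C := by
    rw [hfr]; trivial
  rw [Subgroup.mem_sup_of_normal_right] at hg
  obtain ⟨n, hn, c, hcC, rfl⟩ := hg
  have hJeq : thompsonSubgroupOf p ((S : Subgroup G) ⊓ C) = thompsonSubgroupOf p (S : Subgroup G) :=
    thompsonSubgroupOf_eq_of_le (S : Subgroup G) ((S : Subgroup G) ⊓ C) inf_le_left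
      (le_inf hJS hJC)
  have hnJ : n ∈ Subgroup.normalizer (thompsonSubgroupOf p (S : Subgroup G) : Set G) := by
    rw [← hJeq]
    exact normalizer_le_normalizer_map_charW _ _
      (Subgroup.characteristic_iff_map_eq.mpr (fun φ => thompsonSubgroup_map_equiv p φ)) hn
  have hnW := hNW hnJ
  have hcw : w * c = c * w := by
    rw [hC] at hcC
    exact Subgroup.mem_centralizer_iff.mp hcC w (hWV hw)
  have e : n * c * w * (n * c)⁻¹ = n * w * n⁻¹ := by
    calc n * c * w * (n * c)⁻¹ = n * (c * w) * c⁻¹ * n⁻¹ := by group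
      _ = n * (w * c) * c⁻¹ * n⁻¹ := by rw [hcw]
      _ = n * w * n⁻¹ := by group
  rw [e]
  exact Cfsg.Agent.Lib.helper8.conj_mem_of_mem_normalizer hnW hw

end Cfsg.Agent.Lib.helper1
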