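import Mathlib
import Cfsg.Agent.Lib.helper1.StableW3
import Cfsg.Agent.Lib.helper1.TIHall
import Cfsg.Agent.Lib.helper3.ActionPStable

/-!
# Thompson's normal `p`-complement theorem with `W(S)` (seat helper1)
-/

set_option autoImplicit false

namespace Cfsg.Agent.Lib.helper1

open Cfsg Cfsg.Agent.Lib.helper3
open scoped commutatorElement

universe u

theorem snc_sub_map {G Q : Type u} [Group G] [Group Q] (p : ℕ) (f : G →* Q)
    (S : Subgroup G) (hS : S ⊓ f.ker = ⊥) :
    (stableNormalClosure p ↥(S.map f)).map (S.map f).subtype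
      = ((stableNormalClosure p ↥S).map S.subtype).map f := by
  have hinj : Function.Injective (f.subgroupMap S) := by
    rw [injective_iff_map_eq_one]
    intro x hx
    have h1 : f (x : G) = 1 := by
      have := congrArg Subtype.val hx
      simpa using this
    have h2 : (x : G) ∈ S ⊓ f.ker := ⟨x.2, MonoidHom.mem_ker.mpr h1⟩
    rw [hS, Subgroup.mem_bot] at h2
    exact Subtype.ext h2
  let e : S ≃* S.map f :=
    MulEquiv.ofBijective (f.subgroupMap S) ⟨hinj, f.subgroupMap_surjective S⟩
  rw [← snc_map_equiv p e, Subgroup.map_map, Subgroup.map_map]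
  congr 1

/-- The functor `W`. -/
noncomputable def WW (p : ℕ) [Fact p.Prime] : PFun.{u} p where
  W := fun G _ S => (stableNormalClosure p ↥S).map S.subtype
  le := fun G _ _ S => Subgroup.map_subtype_le _
  map := fun G Q _ _ _ _ f S hS => snc_sub_map p f S hS
  ne_bot := fun G _ _ S hS hS1 => by
    rw [Ne, Subgroup.map_eq_bot_iff_of_injective _ S.subtype_injective]
    haveI : Nontrivial S := (Subgroup.nontrivial_iff_ne_bot S).mpr hS1
    exact snc_ne_bot hS

theorem snc_final {G : Type u} [Group G] [Finite G] {p : ℕ} [Fact p.Prime] (hp2 : p ≠ 2)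
    (P : Sylow p G) (H K : Subgroup G)
    (hmin : MinCex p (WW p) (WW p) trivHered G P H K) : False := by
  have hp : p.Prime := Fact.out
  haveI hHn := hmin.H_normal
  haveI hKn := hmin.K_normal
  have hcore : pCore p G = H :=
    le_antisymm (hmin.core _ (pCore_normal p G) (pCore_isPGroup p G))
      (le_pCore hHn hmin.H_pgroup)
  have hab : ∀ T : Sylow 2 G, IsMulCommutative T := by
    intro T
    obtain ⟨a, ha⟩ := hmin.K_index
    have hTK : ∀ t ∈ T, t ∈ K := by
      intro t ht
      obtain ⟨j, hj⟩ := T.isPGroup' ⟨t, ht⟩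
      have hj' : t ^ (2 ^ j) = 1 := by
        have := congrArg Subtype.val hj
        simpa using this
      have h1 : t ^ (p ^ a) ∈ K := by rw [← ha]; exact Subgroup.pow_index_mem K t
      have h2 : t ^ (2 ^ j) ∈ K := by rw [hj']; exact K.one_mem
      have hcop : (p ^ a).Coprime (2 ^ j) := by
        apply Nat.Coprime.pow
        exact (Nat.coprime_primes hp Nat.prime_two).mpr hp2
      exact mem_of_pow_mem_coprime K t hcop h1 h2
    refine ⟨⟨fun x y => ?_⟩⟩
    obtain ⟨x, hx⟩ := x
    obtain ⟨y, hy⟩ := y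
    apply Subtype.ext
    show x * y = y * x
    have h1 : x * y * x⁻¹ * y⁻¹ ∈ H := hmin.K_comm x (hTK x hx) y (hTK y hy)
    have h2 : x * y * x⁻¹ * y⁻¹ ∈ (T : Subgroup G) :=
      Subgroup.mul_mem _ (Subgroup.mul_mem _ (Subgroup.mul_mem _ hx hy) (Subgroup.inv_mem _ hx))
        (Subgroup.inv_mem _ hy)
    obtain ⟨j, hj⟩ := T.isPGroup' ⟨_, h2⟩
    have hj' : (x * y * x⁻¹ * y⁻¹) ^ (2 ^ j) = 1 := by
      have := congrArg Subtype.val hj
      simpa using this
    obtain ⟨i, hi⟩ := hmin.H_pgroup ⟨_, h1⟩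
    have hi' : (x * y * x⁻¹ * y⁻¹) ^ (p ^ i) = 1 := by
      have := congrArg Subtype.val hi
      simpa using this
    have hcop : (p ^ i).Coprime (2 ^ j) := by
      apply Nat.Coprime.pow
      exact (Nat.coprime_primes hp Nat.prime_two).mpr hp2
    have h3 : x * y * x⁻¹ * y⁻¹ ∈ (⊥ : Subgroup G) :=
      mem_of_pow_mem_coprime ⊥ _ hcop (by rw [hi']; exact Subgroup.one_mem _)
        (by rw [hj']; exact Subgroup.one_mem _)
    rw [Subgroup.mem_bot] at h3
    calc x * y = (x * y * x⁻¹ * y⁻¹) * (y * x) := by group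
      _ = y * x := by rw [h3, one_mul]
  have hst := actionPStable_of_sylow2_comm hp2 hab
  have hc : Subgroup.centralizer (pCore p G : Set G) ≤ pCore p G := by
    rw [hcore]; exact hmin.cent_le
  haveI hWn := snc_normal_main hst hc P
  have h1 : Subgroup.normalizer ((WW p).W G (P : Subgroup G) : Set G) = ⊤ :=
    Subgroup.normalizer_eq_top_iff.mpr hWn
  rw [hmin.norm₁] at h1
  exact hmin.P_ne_top h1

/-- **Thompson's normal `p`-complement theorem** with `W(S)`, `p` odd. -/
theorem snc_npc {G : Type u} [Group G] [Finite G] {p : ℕ} [Fact p.Prime] (hp2 : p ≠ 2)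
    (S : Sylow p G)
    (hN : HasNormalPComplement p ↥(Subgroup.normalizer
      (((stableNormalClosure p ↥(S : Subgroup G)).map (S : Subgroup G).subtype) : Set G))) :
    HasNormalPComplement p G := by
  apply thompson_reduction p (WW p) (WW p) trivHered
    (fun _ _ _ P H K hmin => snc_final hp2 P H K hmin) G S trivial
  exact ⟨hN, npc_of_le (Subgroup.centralizer_le_normalizer _) hN⟩

end Cfsg.Agent.Lib.helper1
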