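import Mathlib
import Cfsg.Agent.Lib.helper1.StableW4
import Cfsg.Agent.Lib.helper3.PSolvQuad
import Cfsg.Agent.Lib.helper3.ThompsonFact
import Cfsg.Agent.Lib.helper9.PPrimeCore
import Cfsg.Agent.Lib.helper16.PSolv

/-!
# `G = O_{p'}(G) N_G(W(S))` for `p`-solvable groups, `p ≥ 5` (seat helper1)
-/

set_option autoImplicit false

namespace Cfsg.Agent.Lib.helper1

open Cfsg Cfsg.Agent.Lib.helper3

universe u

theorem snc_psolv {G : Type u} [Group G] [Finite G] {p : ℕ} [Fact p.Prime] (hp : 5 ≤ p)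
    (hsep : IsPSolvable p G) (S : Sylow p G) :
    pPrimeCore p G ⊔ Subgroup.normalizer (((stableNormalClosure p ↥(S : Subgroup G)).map
      (S : Subgroup G).subtype) : Set G) = ⊤ := by
  have hRn : (pPrimeCore p G).Normal := (Cfsg.Agent.Lib.helper9.pPrimeCore_mem p G).1
  have hRc : (Nat.card (pPrimeCore p G)).Coprime p :=
    Cfsg.Agent.Lib.helper9.pPrimeCore_coprime p G
  obtain ⟨π, hπ⟩ : ∃ π : G →* G ⧸ pPrimeCore p G, π = QuotientGroup.mk' (pPrimeCore p G) :=
    ⟨_, rfl⟩
  have hπs : Function.Surjective π := by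
    rw [hπ]; exact QuotientGroup.mk'_surjective (pPrimeCore p G)
  have hker : π.ker = pPrimeCore p G := by rw [hπ]; exact QuotientGroup.ker_mk' (pPrimeCore p G)
  have hsol' : IsPSolvable p (G ⧸ pPrimeCore p G) :=
    Cfsg.Agent.Lib.helper16.isPSolvable_of_surjective π hπs hsep
  have hcore : pPrimeCore p (G ⧸ pPrimeCore p G) = ⊥ :=
    Cfsg.Agent.Lib.helper9.pPrimeCore_quotient_eq_bot p G
  have hc := Cfsg.Agent.Lib.helper16.centralizer_pCore_le_of_pSolvable hsol' hcore
  have hst := actionPStable_of_pSolvable hp hsol'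
  have hSR : (S : Subgroup G) ⊓ π.ker = ⊥ := by
    rw [hker]
    obtain ⟨n, hn⟩ := IsPGroup.iff_card.mp S.isPGroup'
    apply Subgroup.inf_eq_bot_of_coprime
    rw [hn]
    exact Nat.Coprime.pow_left n hRc.symm
  have hWn := snc_normal_main hst hc (S.mapSurjective hπs)
  have hWn' : (((stableNormalClosure p ↥(S : Subgroup G)).map
      (S : Subgroup G).subtype).map π).Normal := by
    rw [← snc_sub_map p π (S : Subgroup G) hSR]
    exact hWn
  have hWp : IsPGroup p ↥((stableNormalClosure p ↥(S : Subgroup G)).map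
      (S : Subgroup G).subtype) := S.isPGroup'.to_le (Subgroup.map_subtype_le _)
  rw [eq_top_iff]
  intro g _
  have hgn : π g ∈ Subgroup.normalizer ((((stableNormalClosure p ↥(S : Subgroup G)).map
      (S : Subgroup G).subtype).map π : Subgroup (G ⧸ pPrimeCore p G)) :
      Set (G ⧸ pPrimeCore p G)) := by
    rw [Subgroup.normalizer_eq_top]; trivial
  obtain ⟨n', hn', hn'e⟩ := lift_normalizer π (by rw [hker]; exact hRc) _ hWp g hgn
  have h1 : g * n'⁻¹ ∈ pPrimeCore p G := by
    rw [← hker, MonoidHom.mem_ker, map_mul, map_inv, hn'e, mul_inv_cancel]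
  have e : g = (g * n'⁻¹) * n' := by group
  rw [e]
  exact Subgroup.mul_mem _ (Subgroup.mem_sup_left h1) (Subgroup.mem_sup_right hn')

end Cfsg.Agent.Lib.helper1
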